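import Cfsg.Agent.Blocks.Star.Global
import Cfsg.Agent.Blocks.NilBlock.Main
import Cfsg.Agent.Blocks.PairAlg.Fusion
import Cfsg.Agent.Blocks.Major
import Mathlib.GroupTheory.FiniteAbelian.Duality
import Mathlib.GroupTheory.GroupAction.Quotient

/-!
# The linear characters of the defect group trivial on the focal subgroup permute the block
-/

set_option autoImplicit false
set_option linter.unusedSectionVars false
set_option linter.style.haveILetI false

namespace CfsgLib.Star

open Cfsg CfsgLib.Blocks CfsgLib.CharBasics CfsgLib.PairAlg CfsgLib.NilBlock Polynomial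
open scoped ComplexConjugate

attribute [local instance] CfsgLib.Blocks.residueField CfsgLib.Blocks.residue_charP

universe u

variable {p : ℕ} [Fact p.Prime] {M : Ideal AlgInt} {G : Type u} [Group G] [Fintype G]

noncomputable local instance instFintypeSubgroupStarAction (K : Subgroup G) : Fintype K := Fintype.ofFinite K

/-- An orbit count: stabilizers inside `K` force divisibility by the index of `K`. -/
theorem index_dvd_card_of_stabilizer_le {A X : Type*} [Group A] [MulAction A X] [Finite X] (K : Subgroup A)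
    (h : ∀ x : X, MulAction.stabilizer A x ≤ K) : K.index ∣ Nat.card X := by
  classical
  haveI : Fintype (MulAction.orbitRel.Quotient A X) := Fintype.ofFinite _
  haveI : ∀ ω : MulAction.orbitRel.Quotient A X, Finite (A ⧸ MulAction.stabilizer A ω.out) := fun ω =>
    Finite.of_equiv _ (MulAction.orbitEquivQuotientStabilizer A ω.out)
  rw [Nat.card_congr (MulAction.selfEquivSigmaOrbitsQuotientStabilizer A X), Nat.card_sigma]
  refine Finset.dvd_sum fun ω _ => ?_
  rw [← Subgroup.index_eq_card]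
  exact Subgroup.index_dvd_of_le (h ω.out)

variable {P : Subgroup G} (F : FusionSystem P)

theorem focal_le : F.focalSubgroup ≤ P := by
  refine (Subgroup.closure_le _).2 ?_
  rintro y ⟨Q, φ, x, hφ, rfl⟩
  exact P.mul_mem (P.inv_mem ((F.le_of_mem hφ).1 x.2)) ((F.le_of_mem hφ).2 x)

theorem commutator_mem_focal {a b : G} (ha : a ∈ P) (hb : b ∈ P) : b * a * b⁻¹ * a⁻¹ ∈ F.focalSubgroup :=
  Subgroup.subset_closure ⟨Subgroup.zpowers b⁻¹, conjHom (Subgroup.zpowers b⁻¹) a, ⟨b⁻¹, Subgroup.mem_zpowers _⟩,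
    F.conj_mem (Subgroup.zpowers_le.2 (P.inv_mem hb)) ha, by
      show b * a * b⁻¹ * a⁻¹ = b⁻¹⁻¹ * (a * b⁻¹ * a⁻¹)
      group⟩

/-- The focal subgroup inside the group of the system. -/
abbrev focIn : Subgroup P := F.focalSubgroup.subgroupOf P

instance focIn_normal : (focIn F).Normal :=
  ⟨fun n hn g => by
    have h := commutator_mem_focal F n.2 g.2
    rw [Subgroup.mem_subgroupOf] at hn ⊢
    have e : ((g * n * g⁻¹ : P) : G) = (g : G) * n * (g : G)⁻¹ * (n : G)⁻¹ * (n : G) := by push_cast; group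
    rw [e]
    exact F.focalSubgroup.mul_mem h hn⟩

theorem focQuot_comm (a b : P ⧸ focIn F) : a * b = b * a := by
  obtain ⟨a, rfl⟩ := QuotientGroup.mk_surjective a
  obtain ⟨b, rfl⟩ := QuotientGroup.mk_surjective b
  rw [← QuotientGroup.mk_mul, ← QuotientGroup.mk_mul, eq_comm, QuotientGroup.eq, Subgroup.mem_subgroupOf]
  have := commutator_mem_focal F (P.inv_mem b.2) (P.inv_mem a.2)
  convert this using 1
  push_cast
  group

/-- The linear characters trivial on the focal subgroup. -/
abbrev FocChar : Type u := (P ⧸ focIn F) →* ℂˣ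

/-- As a character of the group. -/
def linOf (l : FocChar F) : P →* ℂˣ := l.comp (QuotientGroup.mk' (focIn F))

/-- As a function on the ambient group. -/
noncomputable def etaOf (l : FocChar F) (x : G) : ℂ := by
  classical exact if h : x ∈ P then (linOf F l ⟨x, h⟩ : ℂ) else 1

theorem etaOf_of_mem (l : FocChar F) {x : G} (h : x ∈ P) : etaOf F l x = (linOf F l ⟨x, h⟩ : ℂ) := by
  rw [etaOf, dif_pos h]

theorem etaOf_one (x : G) : etaOf F 1 x = 1 := by
  simp only [etaOf, linOf]
  split_ifs <;> simp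

theorem etaOf_mul (l m : FocChar F) (x : G) : etaOf F (l * m) x = etaOf F l x * etaOf F m x := by
  simp only [etaOf, linOf]
  split_ifs <;> simp

variable (hM : IsPModular p M) {B : Set (IrrCharacter G)}
  {e : Set (IrrCharacter (Subgroup.centralizer (P : Set G)))} (hmax : IsMaximalBrauerPair p M B P e)
  (hF : IsBlockFusionSystemOn p M B P e F)
include hM hmax hF

theorem exists_pow_etaOf (l : FocChar F) (x : G) :
    ∃ i : ℕ, zetaRoot (p ^ (Nat.card G).factorization p) ^ i = etaOf F l x := by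
  have hp := (Fact.out : p.Prime)
  haveI : NeZero (p ^ (Nat.card G).factorization p) := ⟨pow_ne_zero _ hp.ne_zero⟩
  by_cases h : x ∈ P
  · rw [etaOf_of_mem F l h]
    obtain ⟨k, hk⟩ := hmax.1.1.1.exists_card_eq
    have hka : k ≤ (Nat.card G).factorization p :=
      (hp.pow_dvd_iff_le_factorization Nat.card_pos.ne').1 (hk ▸ Subgroup.card_subgroup_dvd_card P)
    have h1 : (linOf F l ⟨x, h⟩) ^ p ^ (Nat.card G).factorization p = 1 := by
      rw [← map_pow, ← Nat.add_sub_cancel' hka, pow_add, pow_mul, ← hk, pow_card_eq_one', one_pow, map_one]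
    obtain ⟨i, -, hi⟩ := (zetaRoot_prim (pow_ne_zero _ hp.ne_zero)).eq_pow_of_pow_eq_one
      (ξ := (linOf F l ⟨x, h⟩ : ℂ)) (by rw [← Units.val_pow_eq_pow_val, h1, Units.val_one])
    exact ⟨i, hi⟩
  · exact ⟨0, by rw [pow_zero, etaOf, dif_neg h]⟩

theorem poly_etaOf (l : FocChar F) (x : G) :
    ∃ R : ℤ[X], aeval (zetaRoot (p ^ (Nat.card G).factorization p)) R = etaOf F l x := by
  obtain ⟨i, hi⟩ := exists_pow_etaOf F hM hmax hF l x
  exact ⟨X ^ i, by rw [map_pow, aeval_X, hi]⟩

theorem admissible_etaOf (l : FocChar F) : Admissible hM P e (etaOf F l) where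
  int x := by
    have hN : p ^ (Nat.card G).factorization p ≠ 0 := pow_ne_zero _ (Fact.out : p.Prime).ne_zero
    obtain ⟨R, hR⟩ := poly_etaOf F hM hmax hF l x
    exact hR ▸ memLocalRing_aeval hM hN (zetaRoot_prim hN).pow_eq_one R
  stable x g a h h' := by
    have hx : x ∈ P := Subgroup.zpowers_le.1 h.subgroup_le
    have hgx : g * x * g⁻¹ ∈ P := by
      have := h'.subgroup_le
      rwa [cm_zpowers, Subgroup.zpowers_le] at this
    have hmem : conjHom (Subgroup.zpowers x) g ∈ F.Hom (Subgroup.zpowers x) :=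
      (mem_hom_iff hM hmax hF).2 ⟨g, fun u => rfl, h.subgroup_le, a, h, h'⟩
    have hfoc : x⁻¹ * (g * x * g⁻¹) ∈ F.focalSubgroup :=
      Subgroup.subset_closure ⟨_, _, ⟨x, Subgroup.mem_zpowers x⟩, hmem, rfl⟩
    rw [etaOf_of_mem F l hgx, etaOf_of_mem F l hx]
    simp only [linOf, MonoidHom.coe_comp, QuotientGroup.coe_mk', Function.comp_apply]
    congr 2
    rw [eq_comm, QuotientGroup.eq, Subgroup.mem_subgroupOf]
    exact hfoc
  ro Q g h := by
    have hh : ∀ u : Q, conjHom Q g u ∈ P := fun u => h (conj_mem_cm.2 u.2)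
    have := ro_character hM (P := Q) (BrauerInd.isCharacter_linear ((linOf F l).comp ((conjHom Q g).codRestrict P hh)))
    convert this using 1
    funext u
    rw [etaOf_of_mem F l (h (conj_mem_cm.2 u.2))]
    rfl
  one := by rw [etaOf_of_mem F l P.one_mem, show (⟨1, P.one_mem⟩ : P) = 1 from rfl, map_one, Units.val_one]
  unit x _ := by
    obtain ⟨i, hi⟩ := exists_pow_etaOf F hM hmax hF l x
    have hN : p ^ (Nat.card G).factorization p ≠ 0 := pow_ne_zero _ (Fact.out : p.Prime).ne_zero
    rw [← hi, Complex.mul_conj', norm_pow, Complex.norm_eq_one_of_pow_eq_one (zetaRoot_prim hN).pow_eq_one hN,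
      one_pow, Complex.ofReal_one, one_pow]
  poly x _ := poly_etaOf F hM hmax hF l x

variable {χ : IrrCharacter G} (hχ : χ ∈ B)
include hχ

/-- The image of a member of the block. -/
noncomputable def actIrr (l : FocChar F) : IrrCharacter G :=
  (exists_irr_eq_star hM (admissible_etaOf F hM hmax hF l) hmax hmax.1.2.1 hχ).choose

theorem actIrr_mem (l : FocChar F) : actIrr F hM hmax hF hχ l ∈ B :=
  (exists_irr_eq_star hM (admissible_etaOf F hM hmax hF l) hmax hmax.1.2.1 hχ).choose_spec.1

theorem actIrr_coe (l : FocChar F) :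
    (actIrr F hM hmax hF hχ l : G → ℂ) = star hM P e (etaOf F l) χ :=
  (exists_irr_eq_star hM (admissible_etaOf F hM hmax hF l) hmax hmax.1.2.1 hχ).choose_spec.2.1

theorem actIrr_height (l : FocChar F) :
    blockHeight p B (actIrr F hM hmax hF hχ l : G → ℂ) = blockHeight p B (χ : G → ℂ) := by
  have h := (exists_irr_eq_star hM (admissible_etaOf F hM hmax hF l) hmax hmax.1.2.1 hχ).choose_spec.2.2
  simp only [blockHeight, charDegree]
  rw [show (actIrr F hM hmax hF hχ l : G → ℂ) 1 = (χ : G → ℂ) 1 from h]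

theorem star_etaOf_one : star hM P e (etaOf F 1) χ = (χ : G → ℂ) := by
  classical
  funext x
  obtain ⟨y, hy, hc, hu, hyr⟩ := pp_spec (p := p) x
  set u := pp (p := p) x
  letI : Fintype (IrrCharacter (cen u)) := @Fintype.ofFinite _ finite_irrCharacter
  obtain ⟨y', rfl⟩ : ∃ y' : cen u, (y' : G) = y := ⟨⟨y, Subgroup.mem_centralizer_singleton_iff.2 hc.eq.symm⟩, rfl⟩
  rw [Subgroup.orderOf_coe] at hyr
  have hreg := regular_eq_sum_secVal (p := p) hM (isClassFunction (isCharacter_of_irr χ.2)) y'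
  rw [if_neg hyr] at hreg
  rw [← hy, star_mul_eq_sum hM P e (etaOf F 1) χ hu y' hyr, hreg]
  refine Finset.sum_congr rfl fun b hb => ?_
  by_cases hind : IsInducedBlock M (cen u) b B
  · obtain ⟨g, -, he⟩ := exists_ev_eq hM hmax (admissible_etaOf F hM hmax hF 1).stable
      ((induced_iff_ofBlk hM hu (mem_blockFinset.1 hb) hmax.1.2.1).1 hind)
    rw [he, etaOf_one, one_mul]
  · rw [secVal_eq_zero hM hu (mem_blockFinset.1 hb) hmax.1.2.1 hχ hind, mul_zero]

omit hχ in
theorem ev_etaOf_mul (l m : FocChar F) (u : G) (a : MonoidAlgebra (Residue hM) G) :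
    ev hM P e (etaOf F (l * m)) u a = ev hM P e (etaOf F l) u a * ev hM P e (etaOf F m) u a := by
  by_cases h : ∃ g, LE' p ⊤ (cm g (Subgroup.zpowers u)) (PairAlg.cj g a) P (bc hM P e)
  · obtain ⟨g, hg⟩ := h
    rw [ev_of_le hM (admissible_etaOf F hM hmax hF (l * m)).stable hg, etaOf_mul,
      ev_of_le hM (admissible_etaOf F hM hmax hF l).stable hg, ev_of_le hM (admissible_etaOf F hM hmax hF m).stable hg]
  · rw [ev_of_not hM h, ev_of_not hM h, zero_mul]

theorem star_etaOf_mul (l m : FocChar F) :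
    star hM P e (etaOf F (l * m)) χ = star hM P e (etaOf F l) (actIrr F hM hmax hF hχ m) := by
  classical
  funext x
  obtain ⟨y, hy, hc, hu, hyr⟩ := pp_spec (p := p) x
  set u := pp (p := p) x
  letI : Fintype (IrrCharacter (cen u)) := @Fintype.ofFinite _ finite_irrCharacter
  obtain ⟨y', rfl⟩ : ∃ y' : cen u, (y' : G) = y := ⟨⟨y, Subgroup.mem_centralizer_singleton_iff.2 hc.eq.symm⟩, rfl⟩
  rw [Subgroup.orderOf_coe] at hyr
  rw [← hy, star_mul_eq_sum hM P e _ χ hu y' hyr, star_mul_eq_sum hM P e _ _ hu y' hyr]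
  refine Finset.sum_congr rfl fun b hb => ?_
  rw [actIrr_coe, secVal_star hM χ hu (mem_blockFinset.1 hb) y', ev_etaOf_mul F hM hmax hF, mul_assoc]

/-- A fixed character forces the linear character to be trivial where a subsection below the pair does not vanish. -/
theorem linOf_eq_one_of_fixed {l : FocChar F} (hfix : actIrr F hM hmax hF hχ l = χ) {u : P}
    {b : Set (IrrCharacter (cen (u : G)))} (hb : Bel hM P e (u : G) b) {y : cen (u : G)}
    (hne : secVal p (u : G) b (χ : G → ℂ) y ≠ 0) : linOf F l u = 1 := by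
  have hu := exists_orderOf_eq_of_mem hmax.1.1.1 u.2
  have h := secVal_star hM χ hu hb.2.1 (P := P) (e := e) (η := etaOf F l) y
  rw [← actIrr_coe F hM hmax hF hχ l, hfix] at h
  rw [ev_of_le hM (admissible_etaOf F hM hmax hF l).stable (g := 1) (by rw [cm_one, cj_one_apply]; exact hb.2.2),
    one_mul, inv_one, mul_one, etaOf_of_mem F l u.2] at h
  exact Units.ext (mul_right_cancel₀ hne (by rw [Units.val_one, one_mul]; exact h.symm))

omit hχ

/-- The members of a given height. -/
abbrev HeightSet (p : ℕ) (B : Set (IrrCharacter G)) (h : ℕ) : Type u :=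
  {χ : IrrCharacter G // χ ∈ B ∧ blockHeight p B (χ : G → ℂ) = h}

/-- The action on the members of a given height. -/
noncomputable def focAction (h : ℕ) : MulAction (FocChar F) (HeightSet p B h) where
  smul l χ := ⟨actIrr F hM hmax hF χ.2.1 l, actIrr_mem F hM hmax hF χ.2.1 l,
    (actIrr_height F hM hmax hF χ.2.1 l).trans χ.2.2⟩
  one_smul χ := Subtype.ext (Subtype.ext
    ((actIrr_coe F hM hmax hF χ.2.1 1).trans (star_etaOf_one F hM hmax hF χ.2.1)))
  mul_smul l m χ := Subtype.ext (Subtype.ext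
    ((actIrr_coe F hM hmax hF χ.2.1 (l * m)).trans
      ((star_etaOf_mul F hM hmax hF χ.2.1 l m).trans
        (actIrr_coe F hM hmax hF (actIrr_mem F hM hmax hF χ.2.1 m) l).symm)))

/-- The characters of height zero are permuted without fixed points. -/
theorem index_focal_dvd_height_zero : (focIn F).index ∣ Nat.card (HeightSet p B 0) := by
  classical
  letI : CommGroup (P ⧸ focIn F) :=
    { (inferInstance : Group (P ⧸ focIn F)) with mul_comm := focQuot_comm F }
  letI := focAction F hM hmax hF 0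
  haveI : Finite (IrrCharacter G) := finite_irrCharacter
  have h := index_dvd_card_of_stabilizer_le (⊥ : Subgroup (FocChar F)) (X := HeightSet p B 0) fun χ l hl => ?_
  · rwa [Subgroup.index_bot, CommGroup.card_monoidHom_of_hasEnoughRootsOfUnity (P ⧸ focIn F) ℂ,
      ← Subgroup.index_eq_card] at h
  rw [Subgroup.mem_bot]
  refine MonoidHom.ext fun q => ?_
  obtain ⟨u, rfl⟩ := QuotientGroup.mk_surjective q
  obtain ⟨b, hb⟩ := exists_bel hM hmax u.2
  have hu := exists_orderOf_eq_of_mem hmax.1.1.1 u.2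
  obtain ⟨χ₁, -, hmin₁, he₁⟩ := exists_min_degExp hM hmax.1.2.1
  have hmin : ∀ ρ ∈ B, degExp p (χ : IrrCharacter G) ≤ degExp p ρ := fun ρ hρ => by
    have h0 := χ.2.2
    rw [blockHeight_eq he₁] at h0
    have := hmin₁ ρ hρ
    omega
  have hne := secVal_one_ne_zero hM hu
    ((induced_iff_ofBlk hM hu hb.2.1 hmax.1.2.1).2 (ofBlk_of_below hM hmax hb.2.2)) χ.2.1 hmin
  exact linOf_eq_one_of_fixed F hM hmax hF χ.2.1 (congrArg Subtype.val hl) hb hne

omit hF in
/-- The block below the pair at a central element of the defect group has full defect. -/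
theorem blockDefect_bel_of_central {u : G} (hc : u ∈ Subgroup.centralizer (P : Set G))
    {b : Set (IrrCharacter (cen u))} (hb : Bel hM P e u b) : blockDefect p B = blockDefect p b := by
  have hp := (Fact.out : p.Prime)
  have hu := exists_orderOf_eq_of_mem hmax.1.1.1 hb.1
  refine le_antisymm ?_ (blockDefect_le_induced hM
    ((induced_iff_ofBlk hM hu hb.2.1 hmax.1.2.1).2 (ofBlk_of_below hM hmax hb.2.2)))
  have hPc : P ≤ cen u := fun a ha =>
    Subgroup.mem_centralizer_singleton_iff.2 (Subgroup.mem_centralizer_iff.1 hc a ha)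
  have hn : P ≤ Subgroup.normalizer (Subgroup.zpowers u : Set G) := by
    refine hPc.trans (le_trans ?_ (centralizer_le_normalizer _))
    rw [centralizer_zpowers_eq]
  have hs := hb.2.2.nstep (complete (G := G) hM) (isPair_bc hM hmax.1.1) hn
  have hne : Br ((P.subgroupOf (cen u)).map (cen u).subtype) (bl hM (cen u).subtype b) ≠ 0 := by
    rw [Subgroup.map_subgroupOf_eq_of_le hPc]
    intro h0
    exact (isPair_bc hM hmax.1.1).blk.ne (by rw [← hs.mul, h0, mul_zero])
  obtain ⟨D, hD, hPD⟩ := exists_defectGroup_ge_of_br_ne hM (cen u).subtype (cen u).subtype_injective hb.2.1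
    ((hmax.1.1.1.comap_subtype : IsPGroup p (P.subgroupOf (cen u)))) hne
  change P.subgroupOf (cen u) ≤ D at hPD
  have h1 := Subgroup.card_le_of_le hPD
  rw [Nat.card_congr (Subgroup.subgroupOfEquivOfLe hPc).toEquiv, card_of_maximal hM hmax,
    card_defectGroup hM hb.2.1 hD] at h1
  exact (Nat.pow_le_pow_iff_right hp.one_lt).1 h1

/-- The characters of any height. -/
theorem index_center_focal_dvd (h : ℕ) :
    (F.focalSubgroup.subgroupOf (P ⊓ Subgroup.centralizer (P : Set G))).index ∣ Nat.card (HeightSet p B h) := by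
  classical
  letI : CommGroup (P ⧸ focIn F) :=
    { (inferInstance : Group (P ⧸ focIn F)) with mul_comm := focQuot_comm F }
  letI := focAction F hM hmax hF h
  haveI : Finite (IrrCharacter G) := finite_irrCharacter
  set Z := P ⊓ Subgroup.centralizer (P : Set G) with hZ
  set π : Z →* P ⧸ focIn F := (QuotientGroup.mk' (focIn F)).comp (Subgroup.inclusion inf_le_left) with hπ
  have hker : π.ker = F.focalSubgroup.subgroupOf Z := by
    ext z
    rw [MonoidHom.mem_ker, hπ, MonoidHom.comp_apply, QuotientGroup.mk'_apply, QuotientGroup.eq_one_iff]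
    rfl
  set r := MonoidHom.domRestrictHom π.range ℂˣ with hr
  have hidx : r.ker.index = π.ker.index := by
    rw [Subgroup.index_ker, Subgroup.index_ker, MonoidHom.range_eq_top.2 (MonoidHom.domRestrict_surjective ℂ π.range),
      Subgroup.card_top, CommGroup.card_monoidHom_of_hasEnoughRootsOfUnity π.range ℂ]
  rw [← hker, ← hidx]
  refine index_dvd_card_of_stabilizer_le r.ker (X := HeightSet p B h) fun χ l hl => ?_
  rw [MonoidHom.mem_ker]
  refine MonoidHom.ext ?_
  rintro ⟨_, z, rfl⟩
  obtain ⟨b, hb⟩ := exists_bel hM hmax z.2.1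
  have hu := exists_orderOf_eq_of_mem hmax.1.1.1 z.2.1
  obtain ⟨k, hk⟩ := hu
  have hind := (induced_iff_ofBlk hM ⟨k, hk⟩ hb.2.1 hmax.1.2.1).2 (ofBlk_of_below hM hmax hb.2.2)
  obtain ⟨ξ₀, h₀, hmin₀, he₀⟩ := exists_min_degExp hM hind.1
  obtain ⟨χ₁, hχ₁, hmin₁, he₁⟩ := exists_min_degExp hM hmax.1.2.1
  have hh1 : blockHeight p B (χ₁ : G → ℂ) = 0 := by rw [blockHeight_eq he₁, Nat.sub_self]
  have hdef := (blockDefect_bel_of_central hM hmax z.2.2 hb).trans (blockDefect_eq he₀)
  have hnot := major_not_mem hM ⟨k, hk⟩ hind (K := k) (dvd_of_eq hk) h₀ hmin₀ hdef χ.2.1 hχ₁ hh1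
  obtain ⟨y, hy⟩ : ∃ y, secVal p (z : G) b ((χ : IrrCharacter G) : G → ℂ) y ≠ 0 := by
    by_contra hcon
    push Not at hcon
    refine hnot ?_
    rw [aeval_contribPoly hM (pow_ne_zero _ (Fact.out : p.Prime).ne_zero) (dvd_of_eq hk) hmin₀,
      Finset.sum_eq_zero fun y _ => by rw [hcon y, zero_mul], mul_zero, zero_div]
    exact memLocalIdeal_zero hM
  exact linOf_eq_one_of_fixed F hM hmax hF χ.2.1 (u := ⟨z, z.2.1⟩) (congrArg Subtype.val hl) hb hy

end CfsgLib.Star
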