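import Cfsg.Agent.Blocks.NilBlock.Words
import Cfsg.Agent.Blocks.PairAlg.Lift

/-!
# Traces of high powers against a central element
-/

set_option autoImplicit false
set_option linter.unusedSectionVars false
set_option linter.style.haveILetI false

namespace CfsgLib.Star

open Cfsg CfsgLib.Blocks CfsgLib.PairAlg CfsgLib.NilBlock

attribute [local instance] CfsgLib.Blocks.residueField CfsgLib.Blocks.residue_charP

variable {p : ℕ} {M : Ideal AlgInt} {H : Type*} [Group H] [Fintype H]

/-- A function as a linear form on the group algebra. -/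
noncomputable def tau (F : H → ℂ) : MonoidAlgebra ℂ H →ₗ[ℂ] ℂ where
  toFun a := ∑ h, a.coeff h * F h
  map_add' a b := by simp [add_mul, Finset.sum_add_distrib]
  map_smul' c a := by simp [Finset.mul_sum, mul_assoc]

theorem tau_apply (F : H → ℂ) (a : MonoidAlgebra ℂ H) : tau F a = ∑ h, a.coeff h * F h := rfl

theorem tau_single (F : H → ℂ) (g : H) (c : ℂ) : tau F (MonoidAlgebra.single g c) = c * F g := by
  classical
  simp [tau_apply, MonoidAlgebra.coeff_single, Finsupp.single_apply]

theorem tau_mul (F : H → ℂ) (a b : MonoidAlgebra ℂ H) :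
    tau F (a * b) = ∑ g, ∑ h, a.coeff g * b.coeff h * F (g * h) := by
  classical
  have e : ∀ a : MonoidAlgebra ℂ H, a = ∑ g, MonoidAlgebra.single g (a.coeff g) := fun a => by
    ext x
    simp [MonoidAlgebra.coeff_sum, MonoidAlgebra.coeff_single, Finsupp.single_apply, Finsupp.finsetSum_apply]
  conv_lhs => rw [e a, e b, Finset.sum_mul_sum]
  simp only [map_sum, MonoidAlgebra.single_mul_single, tau_single]

theorem tau_comm {F : H → ℂ} (hF : IsClassFunction H F) (a b : MonoidAlgebra ℂ H) :
    tau F (a * b) = tau F (b * a) := by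
  rw [tau_mul, tau_mul, Finset.sum_comm]
  refine Finset.sum_congr rfl fun g _ => Finset.sum_congr rfl fun h _ => ?_
  rw [← hF (h * g) g, show g * (h * g) * g⁻¹ = g * h by group]
  ring

theorem memLocalRing_tau (hM : IsPModular p M) {F : H → ℂ} (hF : ∀ h, MemLocalRing M (F h))
    {a : MonoidAlgebra ℂ H} (ha : IsIntegralElt M a) : MemLocalRing M (tau F a) :=
  memLocalRing_sum hM _ fun h _ => memLocalRing_mul hM (ha h) (hF h)

theorem pdiv_tau (hM : IsPModular p M) {F : H → ℂ} (hF : ∀ h, MemLocalRing M (F h))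
    {a : MonoidAlgebra ℂ H} {m : ℕ} (ha : ∀ h, PDiv p M m (a.coeff h)) : PDiv p M m (tau F a) :=
  PDiv.sum hM _ fun h _ => (ha h).mul hM (hF h)

theorem pdiv_coeff_mul (hM : IsPModular p M) {a b : MonoidAlgebra ℂ H} {m : ℕ} (ha : IsIntegralElt M a)
    (hb : ∀ h, PDiv p M m (b.coeff h)) (x : H) : PDiv p M m ((a * b).coeff x) := by
  rw [Blocks.coeff_mul_eq]
  exact PDiv.sum hM _ fun h _ => (hb _).mul_left hM (ha h)

/-- Smallness of all coefficients. -/
def Small (M : Ideal AlgInt) (a : MonoidAlgebra ℂ H) : Prop := ∀ h, MemLocalIdeal M (a.coeff h)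

theorem Small.mul_left (hM : IsPModular p M) {a b : MonoidAlgebra ℂ H} (ha : IsIntegralElt M a) (hb : Small M b) :
    Small M (a * b) := fun x => by
  rw [Blocks.coeff_mul_eq]
  exact memLocalIdeal_sum hM _ fun h _ => memLocalIdeal_mul_left hM (ha h) (hb _)

theorem Small.mul_right (hM : IsPModular p M) {a b : MonoidAlgebra ℂ H} (ha : Small M a) (hb : IsIntegralElt M b) :
    Small M (a * b) := fun x => by
  rw [Blocks.coeff_mul_eq]
  exact memLocalIdeal_sum hM _ fun h _ => memLocalIdeal_mul_right hM (ha h) (hb _)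

theorem isIntegralElt_sub (hM : IsPModular p M) {a b : MonoidAlgebra ℂ H} (ha : IsIntegralElt M a)
    (hb : IsIntegralElt M b) : IsIntegralElt M (a - b) := fun h => by
  rw [MonoidAlgebra.coeff_sub, Finsupp.sub_apply, sub_eq_add_neg]
  exact memLocalRing_add hM (ha h) (memLocalRing_neg (hb h))

theorem sum_pow_eq_words {R ι : Type*} [Ring R] [Fintype ι] (a : ι → R) (n : ℕ) :
    (∑ i, a i) ^ n = ∑ f : Fin n → ι, (List.ofFn fun i => a (f i)).prod := by
  classical
  induction n with
  | zero => simp
  | succ n ih =>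
    rw [pow_succ', ih, Finset.sum_mul_sum, ← (Fin.consEquiv fun _ : Fin (n + 1) => ι).sum_comp,
      Fintype.sum_prod_type]
    refine Finset.sum_congr rfl fun i _ => Finset.sum_congr rfl fun f _ => ?_
    rw [List.ofFn_succ, List.prod_cons]
    simp [Fin.consEquiv]

theorem block_pow {R : Type*} [Monoid R] (g : ℕ → R) (L : ℕ) (hg : ∀ i, g (i + L) = g i) (s : ℕ) :
    ((List.range (s * L)).map g).prod = ((List.range L).map g).prod ^ s := by
  induction s with
  | zero => simp
  | succ s ih =>
    rw [Nat.succ_mul, add_comm, List.range_add, List.map_append, List.prod_append, List.map_map, pow_succ']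
    congr 1
    rw [← ih]
    refine congrArg List.prod (List.map_congr_left fun i _ => ?_)
    show g (L + i) = g i
    rw [add_comm, hg]

theorem exists_adjacent_ne {α : Type*} (g : ℕ → α) (L : ℕ) (hL : g L = g 0) (h : ∃ i < L, g i ≠ g 0) :
    ∃ i, i + 1 < L ∧ g i ≠ g (i + 1) := by
  by_contra hcon
  push Not at hcon
  obtain ⟨i, hi, hne⟩ := h
  exact hne (by
    clear hne
    induction i with
    | zero => rfl
    | succ i ih => rw [← hcon i hi, ih (by omega)])

/-- The product of a word over `ℕ`, starting at `0`. -/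
noncomputable def wprod {ι : Type*} (a : ι → MonoidAlgebra ℂ H) (g : ℕ → ι) (L : ℕ) : MonoidAlgebra ℂ H :=
  ((List.range L).map fun i => a (g i)).prod

theorem isIntegralElt_wprod (hM : IsPModular p M) {ι : Type*} {a : ι → MonoidAlgebra ℂ H}
    (ha : ∀ i, IsIntegralElt M (a i)) (g : ℕ → ι) (L : ℕ) : IsIntegralElt M (wprod a g L) := by
  induction L with
  | zero => rw [wprod, List.range_zero, List.map_nil, List.prod_nil]; exact isIntegralElt_one hM
  | succ L ih =>
    rw [wprod, List.range_succ, List.map_append, List.prod_append, List.map_singleton, List.prod_singleton]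
    exact ih.mul hM (ha _)

theorem small_wprod (hM : IsPModular p M) {ι : Type*} {a : ι → MonoidAlgebra ℂ H}
    (ha : ∀ i, IsIntegralElt M (a i)) (hsm : ∀ i j, i ≠ j → Small M (a i * a j)) (g : ℕ → ι) (L : ℕ)
    {i : ℕ} (hi : i + 1 < L) (hne : g i ≠ g (i + 1)) : Small M (wprod a g L) := by
  obtain ⟨d, rfl⟩ : ∃ d, L = i + (2 + d) := ⟨L - i - 2, by omega⟩
  rw [wprod, List.range_add, List.map_append, List.prod_append, List.range_add, List.map_append, List.map_append,
    List.prod_append]
  refine Small.mul_left hM (isIntegralElt_wprod hM ha g i) (Small.mul_right hM ?_ ?_)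
  · simpa [List.range_succ] using hsm _ _ hne
  · rw [List.map_map, List.map_map]
    exact isIntegralElt_wprod hM ha (fun l => g (i + (2 + l))) d

/-- The trace of a high power of a sum only sees the constant words, if mixed products are small. -/
theorem trace_words (hM : IsPModular p M) {F : H → ℂ} (hF : IsClassFunction H F) (hFi : ∀ h, MemLocalRing M (F h))
    {ι : Type*} [Fintype ι] (a : ι → MonoidAlgebra ℂ H) (ha : ∀ i, IsIntegralElt M (a i))
    (hsm : ∀ i j, i ≠ j → Small M (a i * a j)) (m : ℕ) :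
    ∃ n₀, ∀ n ≥ n₀, ∀ c : MonoidAlgebra ℂ H, IsIntegralElt M c → (∀ i, c * a i = a i * c) →
      PDiv p M m (tau F (c * (∑ i, a i) ^ p ^ n) - ∑ i, tau F (c * a i ^ p ^ n)) := by
  classical
  have hp := hM.1
  set L := p ^ m with hL
  have hL0 : 0 < L := pow_pos hp.pos m
  let ext : (Fin L → ι) → ℕ → ι := fun w i => w ⟨i % L, Nat.mod_lt _ hL0⟩
  choose N hN using fun (w : {w : Fin L → ι // Small M (wprod a (ext w) L)}) => exists_pdiv_coeff_pow hM w.2 m
  refine ⟨m + Finset.univ.sup N, fun n hn c hc hcomm => ?_⟩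
  set q := p ^ n with hq
  haveI : NeZero q := ⟨pow_ne_zero _ hp.ne_zero⟩
  let e : Fin q ≃ ZMod q :=
    { toFun := fun i => ((i : ℕ) : ZMod q)
      invFun := fun k => ⟨k.val, ZMod.val_lt k⟩
      left_inv := fun i => Fin.ext (by simp [ZMod.val_natCast, Nat.mod_eq_of_lt i.2])
      right_inv := fun k => ZMod.natCast_zmod_val k }
  let T : (ZMod q → ι) → ℂ := fun f => tau F (c * wprod a (fun i => f (i : ZMod q)) q)
  have hTexp : tau F (c * (∑ i, a i) ^ q) = ∑ f : ZMod q → ι, T f := by
    rw [sum_pow_eq_words, Finset.mul_sum, map_sum, ← (Equiv.arrowCongr e.symm (Equiv.refl ι)).sum_comp]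
    refine Finset.sum_congr rfl fun f _ => ?_
    simp only [T, wprod]
    congr 2
    rw [List.ofFn_eq_map, ← List.map_coe_finRange_eq_range, List.map_map]
    rfl
  letI : AddAction (ZMod q) (ZMod q → ι) :=
    { vadd := fun k f i => f (i + k)
      zero_vadd := fun f => funext fun i => by show f (i + 0) = f i; rw [add_zero]
      add_vadd := fun k l f => funext fun i => by show f (i + (k + l)) = f (i + k + l); rw [add_assoc] }
  have hone : ∀ f : ZMod q → ι, T ((1 : ZMod q) +ᵥ f) = T f := by
    intro f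
    obtain ⟨r, hr⟩ : ∃ r, q = r + 1 := ⟨q - 1, by have := NeZero.pos q; omega⟩
    have h0 : ((r + 1 : ℕ) : ZMod q) = 0 := by rw [← hr, ZMod.natCast_self]
    set R := ((List.range r).map fun i => a (f (((i + 1 : ℕ)) : ZMod q))).prod with hR
    have e1 : wprod a (fun i => ((1 : ZMod q) +ᵥ f) (i : ZMod q)) q = R * a (f 0) := by
      rw [wprod, show List.range q = List.range (r + 1) by rw [hr], List.range_succ, List.map_append, List.prod_append, List.map_singleton, List.prod_singleton, hR]
      congr 1
      · refine congrArg List.prod (List.map_congr_left fun i _ => ?_)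
        show a (f ((i : ZMod q) + 1)) = _
        rw [Nat.cast_add, Nat.cast_one]
      · show a (f ((r : ZMod q) + 1)) = _
        rw [← Nat.cast_one, ← Nat.cast_add, h0]
    have e2 : wprod a (fun i => f (i : ZMod q)) q = a (f 0) * R := by
      rw [wprod, show List.range q = List.range (r + 1) by rw [hr], List.range_succ_eq_map, List.map_cons, List.prod_cons, List.map_map, hR]
      simp [Function.comp_def]
    simp only [T]
    rw [e1, e2, ← mul_assoc, tau_comm hF, ← mul_assoc, ← hcomm, mul_assoc]
  have hinv : ∀ (k : ZMod q) (f : ZMod q → ι), T (k +ᵥ f) = T f := by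
    intro k
    rw [← ZMod.natCast_zmod_val k]
    generalize k.val = j
    induction j with
    | zero => intro f; rw [Nat.cast_zero, zero_vadd]
    | succ j ih => intro f; rw [Nat.cast_succ, add_comm, ← vadd_vadd, hone, ih]
  let W : (ZMod q → ι) → ℂ := fun f => if ((L : ℕ) : ZMod q) +ᵥ f = f then 0 else T f
  obtain ⟨s, hs, hsum⟩ := sum_invariant_eq_mul hM (H := ZMod q) W
    (fun k f => by
      have hiff : ((L : ℕ) : ZMod q) +ᵥ (k +ᵥ f) = k +ᵥ f ↔ ((L : ℕ) : ZMod q) +ᵥ f = f := by
        rw [vadd_comm, (AddAction.injective k).eq_iff]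
      simp only [W, hinv]
      exact if_congr hiff rfl rfl)
    (fun f => by
      simp only [W]
      split_ifs
      · exact memLocalRing_zero hM
      · exact memLocalRing_tau hM hFi (hc.mul hM (isIntegralElt_wprod hM ha _ _)))
    (p ^ m) (fun f hf => by
      have hdiv : (AddAction.stabilizer (ZMod q) f).index ∣ p ^ n := by
        have h := AddSubgroup.index_dvd_card (AddAction.stabilizer (ZMod q) f)
        rwa [Nat.card_zmod] at h
      obtain ⟨i, -, hi⟩ := (Nat.dvd_prime_pow hp).1 hdiv
      rw [hi]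
      refine pow_dvd_pow p ?_
      by_contra hlt
      push Not at hlt
      refine hf (if_pos ?_)
      refine AddAction.mem_stabilizer_iff.1 ?_
      have h1 := AddSubgroup.nsmul_index_mem (AddAction.stabilizer (ZMod q) f) (1 : ZMod q)
      rw [hi, nsmul_one] at h1
      rw [hL, show p ^ m = p ^ (m - i) * p ^ i by rw [← pow_add, Nat.sub_add_cancel hlt.le], Nat.cast_mul, ← nsmul_eq_mul]
      exact AddSubgroup.nsmul_mem _ h1 _)
  have hnm : q = p ^ (n - m) * L := by rw [hq, hL, ← pow_add, Nat.sub_add_cancel (by omega)]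
  have hper : ∀ f : ZMod q → ι, ((L : ℕ) : ZMod q) +ᵥ f = f → ¬ (∀ i, f i = f 0) → PDiv p M m (T f) := by
    intro f hf hnc
    set g : ℕ → ι := fun i => f (i : ZMod q) with hg
    have hgL : ∀ i, g (i + L) = g i := fun i => by
      have := congrFun hf (i : ZMod q)
      show f (((i + L : ℕ)) : ZMod q) = f i
      rw [Nat.cast_add]
      exact this
    have hmod : ∀ i, g i = g (i % L) := fun i => by
      conv_lhs => rw [← Nat.mod_add_div i L]
      generalize i / L = t
      induction t with
      | zero => simp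
      | succ t ih => rw [Nat.mul_succ, ← add_assoc, hgL, ih]
    obtain ⟨j, hj, hne⟩ : ∃ j, j + 1 < L ∧ g j ≠ g (j + 1) := by
      refine exists_adjacent_ne g L (by simpa using hgL 0) ?_
      by_contra hcon
      push Not at hcon
      refine hnc fun i => ?_
      have := hmod i.val
      rw [hg] at this
      simp only [ZMod.natCast_zmod_val] at this
      rw [this]
      have h2 := hcon (i.val % L) (Nat.mod_lt _ hL0)
      simpa [hg] using h2
    let w : Fin L → ι := fun l => g l
    have hw : ext w = g := funext fun i => (hmod i).symm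
    have hwS : Small M (wprod a (ext w) L) := by rw [hw]; exact small_wprod hM ha hsm g L hj hne
    have hTf : T f = tau F (c * wprod a g L ^ p ^ (n - m)) := by
      simp only [T, wprod]
      rw [← block_pow (fun i => a (g i)) L (fun i => by rw [hgL]), ← hnm]
    rw [hTf]
    refine pdiv_tau hM hFi (pdiv_coeff_mul hM hc ?_)
    rw [← hw]
    exact hN ⟨w, hwS⟩ _ (le_trans (by
      have := Finset.le_sup (f := N) (Finset.mem_univ ⟨w, hwS⟩)
      omega) (Nat.lt_pow_self hp.one_lt).le)
  have hconst : ∑ i, tau F (c * a i ^ q) = ∑ f : ZMod q → ι, if ∀ i, f i = f 0 then T f else 0 := by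
    rw [← Finset.sum_filter]
    refine Finset.sum_bij' (fun i _ => fun _ => i) (fun f _ => f 0) (fun i _ => by simp) (fun f _ => Finset.mem_univ _)
      (fun i _ => rfl) (fun f hf => funext fun i => ((Finset.mem_filter.1 hf).2 i).symm) (fun i _ => ?_)
    simp [T, wprod, List.prod_replicate]
  rw [hTexp, hconst, ← Finset.sum_sub_distrib,
    Finset.sum_congr rfl (g := fun f => W f + (if ((L : ℕ) : ZMod q) +ᵥ f = f ∧ ¬ ∀ i, f i = f 0 then T f else 0))
      fun f _ => ?_, Finset.sum_add_distrib, hsum]
  · refine PDiv.add hM ⟨s, hs, by push_cast; ring⟩ (PDiv.sum hM _ fun f _ => ?_)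
    split_ifs with h
    · exact hper f h.1 h.2
    · exact PDiv.zero hM m
  · simp only [W]
    by_cases h1 : ∀ i, f i = f 0
    · rw [if_pos h1, sub_self, if_pos, if_neg (fun h => h.2 h1), add_zero]
      exact funext fun i => (h1 _).trans (h1 i).symm
    · rw [if_neg h1, sub_zero]
      by_cases h2 : ((L : ℕ) : ZMod q) +ᵥ f = f
      · rw [if_pos h2, if_pos ⟨h2, h1⟩, zero_add]
      · rw [if_neg h2, if_neg (fun h => h2 h.1), add_zero]

/-- Congruent elements have congruent traces of high powers. -/
theorem trace_congr (hM : IsPModular p M) {F : H → ℂ} (hF : IsClassFunction H F) (hFi : ∀ h, MemLocalRing M (F h))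
    {a b : MonoidAlgebra ℂ H} (ha : IsIntegralElt M a) (hb : IsIntegralElt M b) (hsm : Small M (a - b)) (m : ℕ) :
    ∃ n₀, ∀ n ≥ n₀, ∀ c : MonoidAlgebra ℂ H, IsIntegralElt M c → c * a = a * c → c * b = b * c →
      PDiv p M m (tau F (c * a ^ p ^ n) - tau F (c * b ^ p ^ n)) := by
  classical
  obtain ⟨n₁, hn₁⟩ := trace_words hM hF hFi (fun i : Bool => bif i then b else a - b)
    (fun i => by cases i; exacts [isIntegralElt_sub hM ha hb, hb])
    (fun i j hij => by
      cases i <;> cases j
      · exact absurd rfl hij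
      · exact hsm.mul_right hM hb
      · exact hsm.mul_left hM hb
      · exact absurd rfl hij) m
  obtain ⟨n₂, hn₂⟩ := exists_pdiv_coeff_pow hM hsm m
  refine ⟨n₁ + n₂, fun n hn c hc hca hcb => ?_⟩
  have h1 := hn₁ n (by omega) c hc (fun i => by
    cases i
    · simp only [cond_false]; rw [mul_sub, sub_mul, hca, hcb]
    · simpa using hcb)
  have h2 : PDiv p M m (tau F (c * (a - b) ^ p ^ n)) :=
    pdiv_tau hM hFi (pdiv_coeff_mul hM hc (hn₂ _ (le_trans (by omega : n₂ ≤ n) (Nat.lt_pow_self hM.1.one_lt).le)))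
  simp only [Fintype.sum_bool, cond_true, cond_false, add_sub_cancel] at h1
  convert h1.add hM h2 using 1
  ring

/-- The trace of a high power of a small element vanishes to high order. -/
theorem trace_small (hM : IsPModular p M) {F : H → ℂ} (hFi : ∀ h, MemLocalRing M (F h))
    {a : MonoidAlgebra ℂ H} (hsm : Small M a) (m : ℕ) :
    ∃ n₀, ∀ n ≥ n₀, ∀ c : MonoidAlgebra ℂ H, IsIntegralElt M c → PDiv p M m (tau F (c * a ^ p ^ n)) := by
  obtain ⟨n₂, hn₂⟩ := exists_pdiv_coeff_pow hM hsm m
  exact ⟨n₂, fun n hn c hc =>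
    pdiv_tau hM hFi (pdiv_coeff_mul hM hc (hn₂ _ (le_trans hn (Nat.lt_pow_self hM.1.one_lt).le)))⟩

end CfsgLib.Star
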