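import Cfsg.Agent.Blocks.NilBlock.Sections
import Cfsg.Agent.Blocks.PairAlg.Nilpotent
import Cfsg.Agent.Blocks.InducedDefect
import Cfsg.Agent.Blocks.Star.Trace

/-!
# The product of a character of a block with a function of its defect group stable under the fusion
-/

set_option autoImplicit false
set_option linter.unusedSectionVars false
set_option linter.style.haveILetI false

namespace CfsgLib.Star

open Cfsg CfsgLib.Blocks CfsgLib.CharBasics CfsgLib.PairAlg CfsgLib.NilBlock

attribute [local instance] CfsgLib.Blocks.residueField CfsgLib.Blocks.residue_charP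

universe u

variable {p : ℕ} [Fact p.Prime] {M : Ideal AlgInt} {G : Type u} [Group G] [Fintype G] (hM : IsPModular p M)

noncomputable local instance instFintypeSubgroupStarEta (K : Subgroup G) : Fintype K := Fintype.ofFinite K

variable (P : Subgroup G) (e : Set (IrrCharacter (Subgroup.centralizer (P : Set G)))) (η : G → ℂ)

/-- A function takes equal values on the elements connected below the pair. -/
def Stable : Prop :=
  ∀ (x g : G) (a : MonoidAlgebra (Residue hM) G), LE' p ⊤ (Subgroup.zpowers x) a P (bc hM P e) →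
    LE' p ⊤ (cm g (Subgroup.zpowers x)) (cj g a) P (bc hM P e) → η (g * x * g⁻¹) = η x

/-- The value attached to a subsection. -/
noncomputable def ev (x : G) (a : MonoidAlgebra (Residue hM) G) : ℂ := by
  classical exact
  if h : ∃ g, LE' p ⊤ (cm g (Subgroup.zpowers x)) (cj g a) P (bc hM P e) then η (h.choose * x * h.choose⁻¹) else 0

variable {P e η}

theorem ev_of_le (hst : Stable hM P e η) {x g : G} {a : MonoidAlgebra (Residue hM) G}
    (h : LE' p ⊤ (cm g (Subgroup.zpowers x)) (cj g a) P (bc hM P e)) : ev hM P e η x a = η (g * x * g⁻¹) := by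
  classical
  have hex : ∃ g, LE' p ⊤ (cm g (Subgroup.zpowers x)) (cj g a) P (bc hM P e) := ⟨g, h⟩
  rw [ev, dif_pos hex]
  have h' := hex.choose_spec
  generalize hex.choose = d at h' ⊢
  have h1 := hst (g * x * g⁻¹) (d * g⁻¹) (cj g a) (by rw [← cm_zpowers]; exact h)
    (by rw [← cm_zpowers, cm_cm, cj_cj, inv_mul_cancel_right]; exact h')
  rw [← h1]
  congr 1
  group

theorem ev_of_not {x : G} {a : MonoidAlgebra (Residue hM) G}
    (h : ¬ ∃ g, LE' p ⊤ (cm g (Subgroup.zpowers x)) (cj g a) P (bc hM P e)) : ev hM P e η x a = 0 := by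
  rw [ev, dif_neg h]

theorem ev_conj (hst : Stable hM P e η) (c x : G) (a : MonoidAlgebra (Residue hM) G) :
    ev hM P e η (c * x * c⁻¹) (cj c a) = ev hM P e η x a := by
  by_cases h : ∃ g, LE' p ⊤ (cm g (Subgroup.zpowers x)) (cj g a) P (bc hM P e)
  · obtain ⟨g, hg⟩ := h
    rw [ev_of_le hM hst hg, ev_of_le hM hst (g := g * c⁻¹)]
    · congr 1
      group
    · rwa [← cm_zpowers, cm_cm, cj_cj, inv_mul_cancel_right]
  · rw [ev_of_not hM h, ev_of_not hM]
    rintro ⟨g, hg⟩
    rw [← cm_zpowers, cm_cm, cj_cj] at hg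
    exact h ⟨_, hg⟩

variable {B : Set (IrrCharacter G)}

theorem cj_bG (hB : IsPBlock M B) (g : G) : cj g (bG hM B) = bG hM B :=
  (isBlk_bl hM (MonoidHom.id G) id_injective hB).cen.2 g (by rw [range_id]; exact Subgroup.mem_top g)

theorem ofBlk_of_le_conj (hmax : IsMaximalBrauerPair p M B P e) {Q : Subgroup G} {a : MonoidAlgebra (Residue hM) G}
    {g : G} (h : LE' p ⊤ (cm g Q) (cj g a) P (bc hM P e)) : OfBlk p ⊤ (bG hM B) Q a := by
  have := (ofBlk_of_below hM hmax h).cj g⁻¹
  rwa [cm_cm, inv_mul_cancel, cm_one, cj_inv_cj] at this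

theorem exists_ev_eq (hmax : IsMaximalBrauerPair p M B P e) (hst : Stable hM P e η) {x : G}
    {a : MonoidAlgebra (Residue hM) G} (h : OfBlk p ⊤ (bG hM B) (Subgroup.zpowers x) a) :
    ∃ g, g * x * g⁻¹ ∈ P ∧ ev hM P e η x a = η (g * x * g⁻¹) := by
  obtain ⟨g, hg⟩ := exists_conj_below_max hM hmax h
  refine ⟨g, ?_, ev_of_le hM hst hg⟩
  have := hg.subgroup_le
  rwa [cm_zpowers, Subgroup.zpowers_le] at this

variable (P e η)

/-- The element of the centralizer of `u` weighting its blocks. -/
noncomputable def Eu (u : G) : MonoidAlgebra ℂ (cen u) :=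
  haveI : Fintype (IrrCharacter (cen u)) := @Fintype.ofFinite _ finite_irrCharacter
  ∑ b ∈ blockFinset M (cen u), ev hM P e η u (bb hM u b) • blockElt b

/-- The weighted value of `χ` at `u y`, smeared by a high power of `z`. -/
noncomputable def Phi (χ : IrrCharacter G) (n : ℕ) (z : MonoidAlgebra ℂ G) (u y : G) : ℂ :=
  tau (fun c : cen u => (χ : G → ℂ) c)
    (ZStar.res (cen u) (MonoidAlgebra.single (u * y) 1) * Eu hM P e η u * ZStar.res (cen u) z ^ p ^ n)

/-- The `p`-part. -/
noncomputable def pp (x : G) : G := (exists_pp (G := G) (Fact.out : p.Prime)).choose x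

/-- The product of `χ` with `η`. -/
noncomputable def star (χ : IrrCharacter G) (x : G) : ℂ :=
  Phi hM P e η χ 0 1 (pp (p := p) x) ((pp (p := p) x)⁻¹ * x)

variable {P e η}

theorem pp_spec (x : G) : IsPPart p x (pp (p := p) x) := (exists_pp (G := G) (Fact.out : p.Prime)).choose_spec x

theorem pp_eq {u y : G} (hu : ∃ k : ℕ, orderOf u = p ^ k) (hc : Commute u y) (hy : ¬ p ∣ orderOf y) :
    pp (p := p) (u * y) = u :=
  isPPart_unique Fact.out (pp_spec _) ⟨y, rfl, hc, hu, hy⟩

theorem star_mul (χ : IrrCharacter G) {u y : G} (hu : ∃ k : ℕ, orderOf u = p ^ k) (hc : Commute u y)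
    (hy : ¬ p ∣ orderOf y) : star hM P e η χ (u * y) = Phi hM P e η χ 0 1 u y := by
  rw [star, pp_eq hu hc hy, inv_mul_cancel_left]

theorem res_single_of_mem (K : Subgroup G) (a : K) :
    ZStar.res K (MonoidAlgebra.single (a : G) (1 : ℂ)) = MonoidAlgebra.single a 1 := by
  classical
  ext h
  rw [ZStar.coeff_res, MonoidAlgebra.coeff_single, MonoidAlgebra.coeff_single, Finsupp.single_apply, Finsupp.single_apply]
  exact if_congr Subtype.coe_inj rfl rfl

/-- Conjugating everything does not change the weighted values. -/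
theorem phi_conj (hst : Stable hM P e η) (χ : IrrCharacter G) (n : ℕ) (g : G) {z z' : MonoidAlgebra ℂ G}
    (hz : ∀ h, z'.coeff (g * h * g⁻¹) = z.coeff h) (u y : G) :
    Phi hM P e η χ n z' (g * u * g⁻¹) (g * y * g⁻¹) = Phi hM P e η χ n z u y := by
  classical
  letI : Fintype (IrrCharacter (cen u)) := @Fintype.ofFinite _ finite_irrCharacter
  letI : Fintype (IrrCharacter (cen (g * u * g⁻¹))) := @Fintype.ofFinite _ finite_irrCharacter
  set φ := cenConj g u with hφ
  have hφv : ∀ c, ((φ c : cen (g * u * g⁻¹)) : G) = g * c * g⁻¹ := fun c => rfl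
  set L := MonoidAlgebra.mapDomainRingHom ℂ φ.toMonoidHom with hL
  have hLc : ∀ (w : MonoidAlgebra ℂ (cen u)) c, (L w).coeff (φ c) = w.coeff c := fun w c =>
    Finsupp.mapDomain_apply φ.injective _ _
  have hext : ∀ (w : MonoidAlgebra ℂ (cen u)) (w' : MonoidAlgebra ℂ (cen (g * u * g⁻¹))),
      (∀ c, w'.coeff (φ c) = w.coeff c) → L w = w' := fun w w' h => by
    ext d
    obtain ⟨c, rfl⟩ := φ.surjective d
    rw [hLc, h]
  have hLs : ∀ (s : ℂ) (w : MonoidAlgebra ℂ (cen u)), L (s • w) = s • L w := fun s w =>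
    hext _ _ fun c => by simp [hLc]
  have h1 : L (ZStar.res (cen u) z) = ZStar.res (cen (g * u * g⁻¹)) z' := hext _ _ fun c => by
    rw [ZStar.coeff_res, ZStar.coeff_res, hφv, hz]
  have h2 : L (ZStar.res (cen u) (MonoidAlgebra.single (u * y) 1)) =
      ZStar.res (cen (g * u * g⁻¹)) (MonoidAlgebra.single (g * u * g⁻¹ * (g * y * g⁻¹)) 1) := hext _ _ fun c => by
    rw [ZStar.coeff_res, ZStar.coeff_res, hφv, show g * u * g⁻¹ * (g * y * g⁻¹) = g * (u * y) * g⁻¹ by group]
    simp [MonoidAlgebra.coeff_single, Finsupp.single_apply, mul_left_cancel_iff, mul_right_cancel_iff]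
  have h3 : L (Eu hM P e η u) = Eu hM P e η (g * u * g⁻¹) := by
    simp only [Eu, map_sum, hLs]
    refine Finset.sum_bij' (fun b _ => pushBlock φ b) (fun b _ => pushBlock φ.symm b)
      (fun b hb => mem_blockFinset.2 (isPBlock_pushBlock φ (mem_blockFinset.1 hb)))
      (fun b hb => mem_blockFinset.2 (isPBlock_pushBlock φ.symm (mem_blockFinset.1 hb)))
      (fun b _ => by rw [← pushBlock_trans, φ.self_trans_symm, pushBlock_refl])
      (fun b _ => by rw [← pushBlock_trans, φ.symm_trans_self, pushBlock_refl]) (fun b hb => ?_)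
    congr 1
    · rw [← ev_conj hM hst g u (bb hM u b)]
      congr 1
      exact cj_bl hM (cen u).subtype (cen u).subtype_injective (cen (g * u * g⁻¹)).subtype φ g (fun a => rfl) b
    · exact hext _ _ fun c => by rw [coeff_blockElt, coeff_blockElt, blockCoeff_pushBlock]
  rw [Phi, Phi, ← h1, ← h2, ← h3, ← map_pow, ← map_mul, ← map_mul, tau_apply, tau_apply]
  refine (Fintype.sum_equiv φ.toEquiv _ _ fun c => ?_).symm
  simp only [MulEquiv.toEquiv_eq_coe, EquivLike.coe_coe, hLc, hφv]
  rw [isClassFunction (isCharacter_of_irr χ.2) (c : G) g]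

theorem star_isClassFunction (hst : Stable hM P e η) (χ : IrrCharacter G) :
    IsClassFunction G (star hM P e η χ) := fun x g => by
  obtain ⟨y, hy, hc, hu, hyr⟩ := pp_spec (p := p) x
  set u := pp (p := p) x
  rw [← hy, show g * (u * y) * g⁻¹ = (g * u * g⁻¹) * (g * y * g⁻¹) by group,
    star_mul hM χ hu hc hyr,
    star_mul hM χ (by obtain ⟨k, hk⟩ := hu; exact ⟨k, by rw [← hk]; exact (MulAut.conj g).orderOf_eq u⟩)
      ((Commute.conj_iff g).2 hc) (by rwa [show orderOf (g * y * g⁻¹) = orderOf y from (MulAut.conj g).orderOf_eq y])]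
  exact phi_conj hM hst χ 0 g (fun h => by
    classical
    simp [MonoidAlgebra.one_def, MonoidAlgebra.coeff_single, Finsupp.single_apply, eq_comm]) u y

variable (P e η)

/-- The smeared value of one block. -/
theorem tau_single_blockElt (χ : IrrCharacter G) {u : G} (b : Set (IrrCharacter (cen u))) (y : cen u)
    (hy : ¬ p ∣ orderOf y) :
    tau (fun c : cen u => (χ : G → ℂ) c) (ZStar.res (cen u) (MonoidAlgebra.single (u * (y : G)) 1) * blockElt b) =
      secVal p u b (χ : G → ℂ) y := by
  classical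
  have hu : u * (y : G) ∈ cen u := (cen u).mul_mem (Subgroup.mem_centralizer_singleton_iff.2 rfl) y.2
  have hχ := isClassFunction (isCharacter_of_irr χ.2)
  rw [show u * (y : G) = ((⟨u * (y : G), hu⟩ : cen u) : G) from rfl, res_single_of_mem, secVal, if_neg hy,
    ← ZStar.sum_blockCoeff_mul b (isClassFunction_shiftFun hχ), tau_mul]
  rw [Finset.sum_eq_single (⟨u * (y : G), hu⟩ : cen u) (fun c _ hc => Finset.sum_eq_zero fun h _ => by
    simp [MonoidAlgebra.coeff_single, Finsupp.single_apply, Ne.symm hc]) (by simp)]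
  refine Finset.sum_congr rfl fun h _ => ?_
  simp only [MonoidAlgebra.coeff_single, Finsupp.single_eq_same, one_mul, coeff_blockElt, shiftFun, Subgroup.coe_mul]
  congr 1
  have hhu : (h : G) * u = u * h := Subgroup.mem_centralizer_singleton_iff.1 h.2
  rw [← hχ (u * (y : G) * h) (h : G)]
  refine congrArg (χ : G → ℂ) ?_
  calc (h : G) * (u * y * h) * (h : G)⁻¹ = ((h : G) * u) * y := by group
    _ = _ := by rw [hhu, mul_assoc]

/-- The product on a section. -/
theorem star_mul_eq_sum (χ : IrrCharacter G) {u : G} (hu : ∃ k : ℕ, orderOf u = p ^ k) (y : cen u)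
    (hy : ¬ p ∣ orderOf y) [Fintype (IrrCharacter (cen u))] :
    star hM P e η χ (u * y) =
      ∑ b ∈ blockFinset M (cen u), ev hM P e η u (bb hM u b) * secVal p u b (χ : G → ℂ) y := by
  rw [star_mul hM χ hu (Subgroup.mem_centralizer_singleton_iff.1 y.2).symm (by rwa [Subgroup.orderOf_coe]), Phi,
    ZStar.res_one, one_pow, mul_one, Eu, Finset.mul_sum, map_sum]
  refine Finset.sum_congr (by congr 1; exact Subsingleton.elim _ _) fun b _ => ?_
  rw [mul_smul_comm, map_smul, smul_eq_mul, tau_single_blockElt χ b y hy]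

end CfsgLib.Star
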