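import Cfsg.Agent.Blocks.PairAlg.Lift

/-!
# The residue field of a modular ideal is algebraically closed
-/

set_option autoImplicit false
set_option linter.style.haveILetI false

namespace CfsgLib.Star

open Cfsg CfsgLib.Blocks CfsgLib.PairAlg Polynomial

attribute [local instance] CfsgLib.Blocks.residueField CfsgLib.Blocks.residue_charP

variable {p : ℕ} {M : Ideal AlgInt}

theorem isAlgClosed_residue (hM : IsPModular p M) : IsAlgClosed (Residue hM) := by
  let ι : AlgInt →+* localRing hM :=
    { toFun := fun a => ⟨(a : ℂ), memLocalRing_algInt hM a⟩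
      map_one' := Subtype.ext (by simp)
      map_mul' := fun a b => Subtype.ext (by simp)
      map_zero' := Subtype.ext (by simp)
      map_add' := fun a b => Subtype.ext (by simp) }
  set π : AlgInt →+* Residue hM := (Ideal.Quotient.mk (localIdeal hM)).comp ι with hπ
  have hsur : Function.Surjective π := by
    intro x
    obtain ⟨⟨z, hz⟩, rfl⟩ := Ideal.Quotient.mk_surjective x
    obtain ⟨a, b, hb, hab⟩ := hz
    obtain ⟨c, i, hi, hci⟩ := hM.2.1.exists_inv hb
    refine ⟨a * c, Ideal.Quotient.eq.2 ?_⟩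
    show MemLocalIdeal M ((((a * c : AlgInt) : ℂ)) - z)
    refine ⟨-(a * i), b, M.neg_mem (M.mul_mem_left _ hi), hb, ?_⟩
    have hb0 := algInt_coe_ne_zero hb
    rw [← hab]
    have h1 : (c : ℂ) * (b : ℂ) + (i : ℂ) = 1 := by exact_mod_cast congrArg (Subtype.val : AlgInt → ℂ) hci
    push_cast
    field_simp
    linear_combination -(a : ℂ) * h1
  refine IsAlgClosed.of_exists_root _ fun f hf hirr => ?_
  obtain ⟨g, hg, hdeg, hgm⟩ := Polynomial.lifts_and_degree_eq_and_monic
    ((Polynomial.lifts_iff_coeff_lifts f).2 fun n => hsur _) hf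
  have hfd : f.degree ≠ 0 := (Polynomial.degree_pos_of_irreducible hirr).ne'
  obtain ⟨z, hz⟩ := IsAlgClosed.exists_root (g.map (algebraMap AlgInt ℂ)) (by
    rw [hgm.degree_map, hdeg]; exact hfd)
  have hzi : IsIntegral ℤ z := by
    haveI : Algebra.IsIntegral ℤ AlgInt := IsIntegralClosure.isIntegral_algebra ℤ (B := ℂ)
    refine isIntegral_trans (A := AlgInt) z ⟨g, hgm, ?_⟩
    rwa [Polynomial.IsRoot, Polynomial.eval_map] at hz
  set w : AlgInt := ⟨z, hzi⟩
  have hgw : g.eval w = 0 := by
    apply Subtype.val_injective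
    show algebraMap AlgInt ℂ (g.eval w) = 0
    rw [← Polynomial.eval₂_hom]
    rwa [Polynomial.IsRoot, Polynomial.eval_map] at hz
  refine ⟨π w, ?_⟩
  rw [← hg, Polynomial.eval_map, Polynomial.eval₂_hom, hgw, map_zero]

end CfsgLib.Star
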