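import Cfsg.Agent.Blocks.Star.Local
import Cfsg.Agent.Blocks.Star.Residue

/-!
# The induction over the `p`-subgroups
-/

set_option autoImplicit false
set_option linter.unusedSectionVars false
set_option linter.style.haveILetI false

namespace CfsgLib.Star

open Cfsg CfsgLib.Blocks CfsgLib.CharBasics CfsgLib.PairAlg CfsgLib.NilBlock
open scoped ComplexConjugate

attribute [local instance] CfsgLib.Blocks.residueField CfsgLib.Blocks.residue_charP

universe u

variable {p : ℕ} [Fact p.Prime] {M : Ideal AlgInt} {G : Type u} [Group G] [Fintype G] (hM : IsPModular p M)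

noncomputable local instance instFintypeSubgroupStarInduction (K : Subgroup G) : Fintype K := Fintype.ofFinite K

variable {P : Subgroup G} {e : Set (IrrCharacter (Subgroup.centralizer (P : Set G)))} {η : G → ℂ}
  {B : Set (IrrCharacter G)} (χ : IrrCharacter G) (hηi : ∀ x, MemLocalRing M (η x))
  (hst : Stable hM P e η) (hmax : IsMaximalBrauerPair p M B P e)
  (hηro : ∀ (Q : Subgroup G) (g : G), cm g Q ≤ P → RO M Q fun u => η (g * u * g⁻¹))
  {y : G} (hyo : ¬ p ∣ orderOf y)
include hηi hyo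

/-- The local shape of the conclusion. -/
def Good (Q : Subgroup G) (z : MonoidAlgebra ℂ G) (y : G) (m : ℕ) : Prop :=
  ∃ n₀, ∀ n ≥ n₀, ∃ g : Q → ℂ, RO M Q g ∧ ∀ u : Q, PDiv p M m (Phi hM P e η χ n z u y - g u)

omit hηi hyo in
include hM in
theorem ro_zero (Q : Subgroup G) : RO M Q fun _ => 0 :=
  ⟨fun _ _ => rfl, fun θ => by simp [classInner_eq, memLocalRing_zero hM]⟩

include hst hmax hηro in
/-- Above one pair the weighted value is the value times the weight of the pair. -/
theorem good_of_pair {Q : Subgroup G} (hQ : IsPGroup p Q) (hy : y ∈ Subgroup.centralizer (Q : Set G))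
    {z : MonoidAlgebra ℂ G} (hzi : IsIntegralElt M z) (hz : Fix Q z) (hzy : cj y z = z)
    {γ : MonoidAlgebra (Residue hM) G} (hpair : IsPair p ⊤ Q γ)
    (hbr : ∀ R δ, LE' p ⊤ R δ Q γ → Br R (upG hM z) * δ = Br R (upG hM z)) (m : ℕ) :
    Good hM (P := P) (e := e) (η := η) χ Q z y m := by
  classical
  have hc := complete (G := G) hM
  -- the value of the weight at the pairs below
  obtain ⟨w, hwRO, hw⟩ : ∃ w : Q → ℂ, RO M Q w ∧
      ∀ (u : Q) δ, LE' p ⊤ (Subgroup.zpowers (u : G)) δ Q γ → ev hM P e η (u : G) δ = w u := by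
    by_cases hg : ∃ g, LE' p ⊤ (cm g Q) (cj g γ) P (bc hM P e)
    · obtain ⟨g, hg⟩ := hg
      exact ⟨fun u => η (g * u * g⁻¹), hηro Q g hg.subgroup_le, fun u δ hδ =>
        ev_of_le hM hst ((hδ.cj g).trans hg)⟩
    · refine ⟨fun _ => 0, ro_zero hM Q, fun u δ hδ => ev_of_not hM ?_⟩
      rintro ⟨g, hg'⟩
      refine hg (exists_conj_below_max hM hmax ?_)
      exact (ofBlk_iff_of_le hc hδ).2 (ofBlk_of_le_conj hM hmax hg')
  have key : ∀ u : Q, ∃ n₀, ∀ n ≥ n₀, PDiv p M m (Phi hM P e η χ n z u y -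
      w u * ∑ g, (z ^ p ^ n * MonoidAlgebra.single y 1).coeff g * (χ : G → ℂ) ((u : G) * g)) := by
    intro u
    letI : Fintype (IrrCharacter (cen (u : G))) := @Fintype.ofFinite _ finite_irrCharacter
    set u₀ : G := (u : G) with hu₀
    obtain ⟨k, hk⟩ := exists_orderOf_eq_of_mem hQ u.2
    have hR : Subgroup.zpowers u₀ ≤ Q := Subgroup.zpowers_le.2 u.2
    obtain ⟨δ, hδ⟩ := exists_below hc hpair hR
    have hδp := hδ.isPair hpair
    obtain ⟨b₀, hb₀, hbe⟩ := exists_bl hM (cen u₀).subtype (cen u₀).subtype_injective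
      (K := CH ⊤ (Subgroup.zpowers u₀)) (by rw [Subgroup.range_subtype, CH_top, centralizer_zpowers_eq]) hδp.blk
    set W := ZStar.res (cen u₀) z with hW
    have hWi : IsIntegralElt M W := isIntegralElt_res hM hzi _
    have huy : Commute u₀ y := Subgroup.mem_centralizer_iff.1 hy _ u.2
    have hcut : cut (cen u₀) (upG hM z) = Br (Subgroup.zpowers u₀) (upG hM z) := by
      rw [Br, centralizer_zpowers_eq]
    -- the other blocks see nothing
    have hblk : ∀ b : Set (IrrCharacter (cen u₀)), IsPBlock M b → b ≠ b₀ → Small M (blockElt b * W) := by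
      intro b hb hne
      refine small_of_up hM (cen u₀).subtype_injective ((isIntegralElt_blockElt hM hb).mul hM hWi) ?_
      rw [up_mul hM _ (isIntegralElt_blockElt hM hb) hWi, up_res, hcut, ← hbr _ δ hδ]
      show bl hM (cen u₀).subtype b * _ = 0
      have hcomm : Br (Subgroup.zpowers u₀) (upG hM z) * δ = δ * Br (Subgroup.zpowers u₀) (upG hM z) :=
        (hδp.blk.cen.comm fun x hx => ⟨Subgroup.mem_top x, supp_cut _ _ x hx⟩).symm
      rw [hcomm, ← mul_assoc, ← hbe, bl_mul_eq_zero hM _ hb hb₀ hne, zero_mul]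
    obtain ⟨hF, hFi⟩ := valOn_props hM χ hηi u₀
    choose nb hnb using fun b : {b : Set (IrrCharacter (cen u₀)) // IsPBlock M b ∧ b ≠ b₀} =>
      trace_small hM hFi (hblk b.1 b.2.1 b.2.2) m
    haveI : Fintype {b : Set (IrrCharacter (cen u₀)) // IsPBlock M b ∧ b ≠ b₀} := Fintype.ofFinite _
    refine ⟨Finset.univ.sup nb + m, fun n hn => ?_⟩
    set q := p ^ n with hq
    set s := ZStar.res (cen u₀) (MonoidAlgebra.single (u₀ * y) 1) with hs
    have hsi : IsIntegralElt M s := isIntegralElt_res hM (isIntegralElt_single hM _) _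
    set T := fun b : Set (IrrCharacter (cen u₀)) =>
      tau (fun c : cen u₀ => (χ : G → ℂ) c) (s * blockElt b * W ^ q) with hT
    have hΦ : Phi hM P e η χ n z u₀ y = ∑ b ∈ blockFinset M (cen u₀), ev hM P e η u₀ (bb hM u₀ b) * T b := by
      rw [Phi, Eu, Finset.mul_sum, Finset.sum_mul, map_sum]
      exact Finset.sum_congr (by congr 1; exact Subsingleton.elim _ _) fun b _ => by
        rw [mul_smul_comm, smul_mul_assoc, map_smul, smul_eq_mul]
    have hTs : ∑ b ∈ blockFinset M (cen u₀), T b = tau (fun c : cen u₀ => (χ : G → ℂ) c) (s * W ^ q) := by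
      simp only [hT, ← map_sum, ← Finset.sum_mul, ← Finset.mul_sum, sum_blockElt_eq_one hM, mul_one]
    have h1 : PDiv p M m (Phi hM P e η χ n z u₀ y - w u * tau (fun c : cen u₀ => (χ : G → ℂ) c) (s * W ^ q)) := by
      rw [hΦ, ← hTs, Finset.mul_sum, ← Finset.sum_sub_distrib]
      refine PDiv.sum hM _ fun b hb => ?_
      by_cases hne : b = b₀
      · subst hne
        rw [hw u (bb hM u₀ b) (by rw [show bb hM u₀ b = δ from hbe]; exact hδ), sub_self]
        exact PDiv.zero hM m
      · have hpow : s * blockElt b * W ^ q = s * (blockElt b * W) ^ q := by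
          obtain ⟨r, hr⟩ : ∃ r, q = r + 1 := ⟨q - 1, (Nat.sub_add_cancel (pow_pos hM.1.pos n)).symm⟩
          rw [mul_assoc, ((isClassElt_blockElt b).commute W).mul_pow, hr,
            (isIdempotentElem_blockElt b).pow_succ_eq r]
        rw [← sub_mul]
        refine PDiv.mul_left hM (by
          rw [sub_eq_add_neg]
          exact memLocalRing_add hM (memLocalRing_ev hM hηi _ _) (memLocalRing_neg (hwRO.memLocalRing hM u))) ?_
        simp only [hT, hpow]
        exact hnb ⟨b, mem_blockFinset.1 hb, hne⟩ n (le_trans (Finset.le_sup (Finset.mem_univ _))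
          (le_trans (Nat.le_add_right _ _) hn)) _ hsi
    -- back to the group
    obtain ⟨t, ht⟩ := exists_pow_eq_self_of_coprime (x := y) (n := q)
      (((Fact.out : p.Prime).coprime_iff_not_dvd.2 hyo).pow_left n)
    set y₁ := y ^ t with hy₁
    have hy₁q : y₁ ^ q = y := by rw [hy₁, ← pow_mul, mul_comm, pow_mul, ht]
    have huy₁ : Commute u₀ y₁ := huy.pow_right t
    have hzy₁ : Commute (MonoidAlgebra.single y₁ (1 : ℂ)) z := by
      refine commute_single_of_cj fun x => ?_
      conv_lhs => rw [← cj_pow_fix hzy t, coeff_cj]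
      rw [← hy₁]
      congr 1
      group
    set a := z * MonoidAlgebra.single y₁ (1 : ℂ) with ha
    have hai : IsIntegralElt M a := hzi.mul hM (isIntegralElt_single hM _)
    have hac : ∀ g, a.coeff g = z.coeff (g * y₁⁻¹) := fun g => by
      rw [ha, MonoidAlgebra.coeff_mul_single_apply, mul_one]
    have h2 := (twist_congr hM hk (a := a) hai (fun g => by
        rw [hac, hac, show u₀ * g * u₀⁻¹ * y₁⁻¹ = u₀ * (g * y₁⁻¹) * u₀⁻¹ by
          rw [mul_assoc, (huy₁.inv_left.inv_right).eq]; group, hz.coeff u.2])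
      (b := cut (cen u₀) a)
      (fun g hg => coeff_cut_of_mem _ (Subgroup.mem_centralizer_singleton_iff.2 hg.symm))
      (fun g hg => coeff_cut_of_notMem _ fun h => hg (Subgroup.mem_centralizer_singleton_iff.1 h).symm)
      (isClassFunction (isCharacter_of_irr χ.2)) (memLocalRing_apply hM χ) n).mono hM (show m ≤ n + 1 by omega)
    have hy₁c : y₁ ∈ cen u₀ := Subgroup.mem_centralizer_singleton_iff.2 huy₁.eq.symm
    have hres : ZStar.res (cen u₀) (cut (cen u₀) a) = W * MonoidAlgebra.single ⟨y₁, hy₁c⟩ 1 := by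
      ext c
      rw [ZStar.coeff_res, coeff_cut_of_mem _ c.2, hac, MonoidAlgebra.coeff_mul_single_apply, mul_one, hW,
        ZStar.coeff_res]
      rfl
    have hcomm : Commute W (MonoidAlgebra.single (⟨y₁, hy₁c⟩ : cen u₀) (1 : ℂ)) := by
      refine (commute_single_of_cj fun x => ?_).symm
      rw [hW, ZStar.coeff_res, ZStar.coeff_res]
      show z.coeff (y₁ * (x : G) * y₁⁻¹) = z.coeff (x : G)
      conv_lhs => rw [← cj_pow_fix hzy t, coeff_cj]
      rw [← hy₁]
      congr 1
      group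
    have hA : ∑ g, (cut (cen u₀) a ^ p ^ n).coeff g * (χ : G → ℂ) (u₀ * g) =
        tau (fun c : cen u₀ => (χ : G → ℂ) c) (s * W ^ q) := by
      have huc : u₀ ∈ cen u₀ := Subgroup.mem_centralizer_singleton_iff.2 rfl
      have hyc : y ∈ cen u₀ := Subgroup.mem_centralizer_singleton_iff.2 huy.eq.symm
      have e1 : s = MonoidAlgebra.single (⟨y, hyc⟩ : cen u₀) (1 : ℂ) * MonoidAlgebra.single (⟨u₀, huc⟩ : cen u₀) 1 := by
        rw [hs, show u₀ * y = (((⟨y, hyc⟩ * ⟨u₀, huc⟩ : cen u₀)) : G) from huy.eq, res_single_of_mem,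
          MonoidAlgebra.single_mul_single, one_mul]
      have e2 : (W * MonoidAlgebra.single ⟨y₁, hy₁c⟩ 1) ^ q = W ^ q * MonoidAlgebra.single (⟨y, hyc⟩ : cen u₀) 1 := by
        rw [hcomm.mul_pow, MonoidAlgebra.single_pow, one_pow]
        congr 2
        exact Subtype.ext (by rw [SubmonoidClass.coe_pow]; exact hy₁q)
      rw [sum_pow_res (cen u₀) (supp_cut _ _) _ (fun g => (χ : G → ℂ) (u₀ * g)), hres, e2, e1, mul_assoc,
        tau_comm hF, mul_assoc, tau_mul]
      rw [Finset.sum_eq_single (⟨u₀, huc⟩ : cen u₀) (fun c _ hc' => Finset.sum_eq_zero fun h _ => by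
        simp [MonoidAlgebra.coeff_single, Finsupp.single_eq_of_ne hc']) (by simp)]
      refine Finset.sum_congr rfl fun c _ => ?_
      rw [MonoidAlgebra.coeff_single, Finsupp.single_eq_same, one_mul]
      rfl
    have hB : (z * MonoidAlgebra.single y₁ (1 : ℂ)) ^ p ^ n = z ^ p ^ n * MonoidAlgebra.single y 1 := by
      rw [hzy₁.symm.mul_pow, MonoidAlgebra.single_pow, one_pow, ← hq, hy₁q]
    rw [hA, ha, hB] at h2
    have h3 := h1.sub hM (h2.mul_left hM (hwRO.memLocalRing hM u))
    convert h3 using 1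
    ring
  choose n₀ hn₀ using key
  refine ⟨Finset.univ.sup n₀, fun n hn => ⟨_, RO.mul hM hwRO (ro_apply_mul hM (isCharacter_of_irr χ.2)
    ((isIntegralElt_pow hM hzi _).mul hM (isIntegralElt_single hM y)) fun v hv g => ?_),
    fun u => hn₀ u n ((Finset.le_sup (Finset.mem_univ u)).trans hn)⟩⟩
  refine ((hz.pow _).mul (fix_of_coeff fun v hv x => ?_)).coeff hv g
  have hvy : v * y = y * v := Subgroup.mem_centralizer_iff.1 hy v hv
  have hiff : v * x * v⁻¹ = y ↔ x = y :=
    ⟨fun h => mul_left_cancel (a := v) ((mul_inv_eq_iff_eq_mul.1 h).trans hvy.symm),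
      fun h => by rw [h, hvy, mul_inv_cancel_right]⟩
  simp only [MonoidAlgebra.coeff_single, Finsupp.single_apply, eq_comm (a := y)]
  exact if_congr hiff rfl rfl

omit hyo in
include hst hmax hηro in
/-- The main local statement. -/
theorem good_all (hyo : ¬ p ∣ orderOf y) : ∀ (c : ℕ) (Q : Subgroup G), Nat.card Q = c → IsPGroup p Q →
    y ∈ Subgroup.centralizer (Q : Set G) → ∀ z : MonoidAlgebra ℂ G, IsIntegralElt M z → Fix Q z → cj y z = z →
      upG hM z * upG hM z = upG hM z → ∀ m, Good hM (P := P) (e := e) (η := η) χ Q z y m := by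
  classical
  intro c
  induction c using Nat.strong_induction_on with
  | _ c ihc =>
  intro Q hQc hQ hy
  let rk : MonoidAlgebra (Residue hM) G → ℕ := fun r => Module.finrank (Residue hM) (LinearMap.range (LinearMap.mulLeft (Residue hM) r))
  suffices main : ∀ (d : ℕ) (z : MonoidAlgebra ℂ G), IsIntegralElt M z → Fix Q z → cj y z = z →
      upG hM z * upG hM z = upG hM z → rk (upG hM z) = d → ∀ m, Good hM (P := P) (e := e) (η := η) χ Q z y m from
    fun z h1 h2 h3 h4 m => main _ z h1 h2 h3 h4 rfl m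
  intro d
  induction d using Nat.strong_induction_on with
  | _ d ihd =>
  intro z hzi hz hzy hidem hrk m
  set r := upG hM z with hr
  have hrF : Fix Q r := fix_upG hM hz
  have hry : cj y r = r := by rw [hr, ← upG_cj, hzy]
  by_cases hr0 : r = 0
  · choose n₀ hn₀ using fun u : Q => phi_small hM χ hηi (P := P) (e := e) (y := y) hzi (u : G) (by rw [← hr, hr0, map_zero]) m
    refine ⟨Finset.univ.sup n₀, fun n hn => ⟨_, ro_zero hM Q, fun u => ?_⟩⟩
    rw [sub_zero]
    exact hn₀ u n ((Finset.le_sup (Finset.mem_univ u)).trans hn)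
  by_cases hsplit : ∃ x, Fix Q x ∧ cj y x = x ∧ x * x = x ∧ r * x = x ∧ x * r = x ∧ x ≠ 0 ∧ x ≠ r
  · obtain ⟨x, hxF, hxy, hxx, hrx, hxr, hx0, hxne⟩ := hsplit
    have hle : ∀ w, r * w = w → LinearMap.range (LinearMap.mulLeft (Residue hM) w) ≤
        LinearMap.range (LinearMap.mulLeft (Residue hM) r) := by
      rintro w hw _ ⟨v, rfl⟩
      exact ⟨w * v, by simp only [LinearMap.mulLeft_apply, ← mul_assoc, hw]⟩
    have hd' : (r - x) * (r - x) = r - x := by rw [sub_mul, mul_sub, mul_sub, hidem, hxx, hrx, hxr]; abel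
    have hlt1 : rk x < d := by
      rw [← hrk]
      refine Submodule.finrank_lt_finrank_of_lt (lt_of_le_of_ne (hle x hrx) fun heq => hxne ?_)
      obtain ⟨v, hv⟩ : r ∈ LinearMap.range (LinearMap.mulLeft (Residue hM) x) := heq ▸ ⟨r, hidem⟩
      simp only [LinearMap.mulLeft_apply] at hv
      have : x * r = r := by rw [← hv, ← mul_assoc, hxx]
      exact hxr.symm.trans this
    have hlt2 : rk (r - x) < d := by
      rw [← hrk]
      refine Submodule.finrank_lt_finrank_of_lt (lt_of_le_of_ne (hle _ (by rw [mul_sub, hidem, hrx])) fun heq => hx0 ?_)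
      obtain ⟨v, hv⟩ : x ∈ LinearMap.range (LinearMap.mulLeft (Residue hM) (r - x)) := heq ▸ ⟨x, hrx⟩
      simp only [LinearMap.mulLeft_apply] at hv
      rw [← hxx]
      conv_lhs => arg 2; rw [← hv]
      rw [← mul_assoc, mul_sub, hxr, hxx, sub_self, zero_mul]
    obtain ⟨z₁, hz₁i, hz₁r, hz₁F, hz₁y⟩ := exists_fixed_lift hM hxF hxy
    obtain ⟨z₂, hz₂i, hz₂r, hz₂F, hz₂y⟩ := exists_fixed_lift hM (hrF.sub hxF) (by rw [map_sub, hry, hxy] : cj y (r - x) = r - x)
    obtain ⟨n₁, hn₁⟩ := ihd _ hlt1 z₁ hz₁i hz₁F hz₁y (by rw [hz₁r, hxx]) (by rw [hz₁r]) m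
    obtain ⟨n₂, hn₂⟩ := ihd _ hlt2 z₂ hz₂i hz₂F hz₂y (by rw [hz₂r, hd']) (by rw [hz₂r]) m
    choose n₃ hn₃ using fun u : Q => phi_sum hM χ hηi (P := P) (e := e) hy (fun i : Bool => bif i then z₁ else z₂) hzi
      (fun i => by cases i; exacts [hz₂i, hz₁i]) u.2 hz hzy
      (fun i => by cases i; exacts [commute_kU hM hηi hy u.2 hz₂F hz₂y, commute_kU hM hηi hy u.2 hz₁F hz₁y])
      (fun i j hij => by
        have key : ∀ a b : MonoidAlgebra (Residue hM) G, Fix Q a → Fix Q b → a * b = 0 →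
            cut (cen (u : G)) a * cut (cen (u : G)) b = 0 := fun a b ha hb hab => by
          have hle : Subgroup.zpowers (u : G) ≤ Q := Subgroup.zpowers_le.2 u.2
          have h := br_mul (hQ.to_le hle) (ha.mono hle) (hb.mono hle)
          rw [hab, map_zero, Br, centralizer_zpowers_eq] at h
          exact h.symm
        cases i <;> cases j
        · exact absurd rfl hij
        · simp only [cond_true, cond_false, hz₁r, hz₂r]
          exact key _ _ (hrF.sub hxF) hxF (by rw [sub_mul, hrx, hxx, sub_self])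
        · simp only [cond_true, cond_false, hz₁r, hz₂r]
          exact key _ _ hxF (hrF.sub hxF) (by rw [mul_sub, hxr, hxx, sub_self])
        · exact absurd rfl hij)
      (by simp only [Fintype.sum_bool, cond_true, cond_false, hz₁r, hz₂r, ← map_add, add_sub_cancel, ← hr]) m
    refine ⟨n₁ + n₂ + Finset.univ.sup n₃, fun n hn => ?_⟩
    obtain ⟨g₁, hg₁, hd₁⟩ := hn₁ n (by omega)
    obtain ⟨g₂, hg₂, hd₂⟩ := hn₂ n (by omega)
    refine ⟨_, RO.sum hM Finset.univ (fun i : Bool => bif i then g₁ else g₂) (fun i _ => by cases i; exacts [hg₂, hg₁]), fun u => ?_⟩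
    have h3 := hn₃ u n ((Finset.le_sup (Finset.mem_univ u)).trans (by omega))
    simp only [Fintype.sum_bool, cond_true, cond_false, Finset.sum_apply] at h3 ⊢
    convert (h3.add hM (hd₁ u)).add hM (hd₂ u) using 1
    ring
  push Not at hsplit
  have hprim : Prim Q y r := ⟨hrF, hry, hidem, hr0, fun x h1 h2 h3 h4 h5 =>
    or_iff_not_imp_left.2 fun hx => hsplit x h1 h2 h3 h4 h5 hx⟩
  by_cases hBr : Br Q r = 0
  swap
  · obtain ⟨γ, hγ, hall⟩ := hprim.exists_pair (complete (G := G) hM) hQ hy hyo hBr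
    exact good_of_pair hM χ hηi hst hmax hηro hyo hQ hy hzi hz hzy hγ hall m
  -- induced from a maximal subgroup
  haveI := isAlgClosed_residue hM
  obtain ⟨T, g, j, hTQ, hgQ, hgT, hgp, hgn, hcov, hjF, hjy, hjj, horth, hjsum⟩ := hprim.exists_translates hQ hy hyo hBr
  have hp := (Fact.out : p.Prime)
  have hyT : y ∈ Subgroup.centralizer (T : Set G) := Subgroup.centralizer_le hTQ hy
  have hgy : Commute g y := Subgroup.mem_centralizer_iff.1 hy g hgQ
  obtain ⟨zj, hzji, hzjr, hzjF, hzjy⟩ := exists_fixed_lift hM hjF hjy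
  have hlt : Nat.card T < c := by
    rw [← hQc]
    refine lt_of_le_of_ne (Subgroup.card_le_of_le hTQ) fun h => hgT ?_
    rw [Subgroup.eq_of_le_of_card_ge hTQ h.ge]; exact hgQ
  obtain ⟨n₁, hn₁⟩ := ihc _ hlt T rfl (hQ.to_le hTQ) hyT zj hzji hzjF hzjy (by rw [hzjr, hjj]) m
  set zz := fun i : Fin p => cj (g ^ (i : ℕ)) zj with hzz
  have hzzr : ∀ i : Fin p, upG hM (zz i) = cj (g ^ (i : ℕ)) j := fun i => by rw [hzz]; simp only; rw [upG_cj, hzjr]
  have hzzF : ∀ i : Fin p, Fix T (zz i) ∧ cj y (zz i) = zz i := fun i =>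
    ⟨fix_cj_normal (Subgroup.pow_mem _ hgn _) hzjF, by
      simp only [hzz]; rw [cj_cj, ← (hgy.pow_left (i : ℕ)).eq, ← cj_cj, hzjy]⟩
  have hjH : ∀ i : Fin p, Fix T (cj (g ^ (i : ℕ)) j) := fun i => fix_cj_normal (Subgroup.pow_mem _ hgn _) hjF
  have hin : ∀ u : Q, (u : G) ∈ T → ∃ n₀, ∀ n ≥ n₀,
      PDiv p M m (Phi hM P e η χ n z u y - ∑ i, Phi hM P e η χ n (zz i) u y) := fun u hu => by
    refine phi_sum hM χ hηi (P := P) (e := e) hy zz hzi (fun i => isIntegralElt_cj hM hzji _) u.2 hz hzy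
      (fun i => commute_kU hM hηi hyT hu (hzzF i).1 (hzzF i).2) (fun a b hab => ?_) ?_ m
    · rw [hzzr, hzzr]
      have hle : Subgroup.zpowers (u : G) ≤ T := Subgroup.zpowers_le.2 hu
      have h := br_mul ((hQ.to_le hTQ).to_le hle) ((hjH a).mono hle) ((hjH b).mono hle)
      rw [horth a b a.2 b.2 (fun h => hab (Fin.ext h)), map_zero, Br, centralizer_zpowers_eq] at h
      exact h.symm
    · rw [← hr, ← hjsum, map_sum, Finset.sum_range]
      exact Finset.sum_congr rfl fun i _ => by rw [hzzr]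
  have hout : ∀ u : Q, (u : G) ∉ T → ∃ n₀, ∀ n ≥ n₀, PDiv p M m (Phi hM P e η χ n z u y) := fun u hu => by
    refine phi_small hM χ hηi (P := P) (e := e) hzi _ ?_ m
    obtain ⟨a, ha, t, ht, hut⟩ := hcov (u : G) u.2
    have ha0 : a ≠ 0 := fun h => hu (by rw [hut, h, pow_zero, one_mul]; exact ht)
    ext x
    by_cases hx : x ∈ cen (u : G)
    swap
    · rw [coeff_cut_of_notMem _ hx]; simp
    rw [coeff_cut_of_mem _ hx, ← hr, ← hjsum, MonoidAlgebra.coeff_sum, Finsupp.finsetSum_apply]
    set φ : ℕ → Residue hM := fun i => (cj (g ^ i) j).coeff x with hφ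
    have hper : ∀ i, φ (i + p) = φ i := fun i => by
      simp only [hφ]; rw [pow_add, ← cj_cj, hjF _ hgp]
    have hstep : ∀ i, φ (a + i) = φ i := fun i => by
      simp only [hφ]
      have h1 : cj (u : G) (cj (g ^ i) j) = cj (g ^ (a + i)) j := by
        rw [hut, pow_add, ← cj_cj, ← cj_cj]
        exact congrArg _ ((fix_cj_normal (Subgroup.pow_mem _ hgn i) hjF) t ht)
      rw [← h1, coeff_cj]
      congr 1
      rw [mul_assoc, Subgroup.mem_centralizer_singleton_iff.1 hx, inv_mul_cancel_left]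
    have hmul : ∀ k i, φ (k * a + i) = φ i := fun k => by
      induction k with
      | zero => intro i; simp
      | succ k ih => intro i; rw [Nat.succ_mul, add_comm (k * a) a, add_assoc, hstep, ih]
    have hperm : ∀ k i, φ (i + k * p) = φ i := fun k => by
      induction k with
      | zero => intro i; simp
      | succ k ih => intro i; rw [Nat.succ_mul, ← add_assoc, hper, ih]
    have hone : ∀ i, φ (i + 1) = φ i := fun i => by
      have hcop : Nat.Coprime a p := (hp.coprime_iff_not_dvd.2 fun hd => by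
        have := Nat.le_of_dvd (Nat.pos_of_ne_zero ha0) hd; omega).symm
      obtain ⟨k, -, hk⟩ := Nat.exists_mul_mod_eq_one_of_coprime hcop hp.one_lt
      have h1 : i + 1 + a * k / p * p = k * a + i := by
        have := Nat.mod_add_div (a * k) p
        rw [hk] at this
        rw [mul_comm k a, mul_comm (a * k / p) p]
        omega
      rw [← hperm (a * k / p) (i + 1), h1, hmul]
    have hconst : ∀ i, φ i = φ 0 := fun i => by
      induction i with
      | zero => rfl
      | succ i ih => rw [hone, ih]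
    show ∑ i ∈ Finset.range p, φ i = _
    rw [Finset.sum_congr rfl fun i _ => hconst i, Finset.sum_const, Finset.card_range, nsmul_eq_mul, CharP.cast_eq_zero,
      zero_mul]
    simp
  have hall : ∀ u : Q, ∃ n₀, ∀ n ≥ n₀, PDiv p M m (Phi hM P e η χ n z u y -
      if (u : G) ∈ T then ∑ i, Phi hM P e η χ n (zz i) u y else 0) := fun u => by
    by_cases hu : (u : G) ∈ T
    · simp only [if_pos hu]; exact hin u hu
    · simp only [if_neg hu, sub_zero]; exact hout u hu
  choose n₂ hn₂ using hall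
  refine ⟨n₁ + Finset.univ.sup n₂, fun n hn => ?_⟩
  obtain ⟨h, hh, hdiff⟩ := hn₁ n (by omega)
  refine ⟨_, ro_orbitInd hM hTQ hgQ hgT hgp hgn hcov hh, fun u => ?_⟩
  have h2 := hn₂ u n ((Finset.le_sup (Finset.mem_univ u)).trans (by omega))
  by_cases hu : (u : G) ∈ T
  · rw [if_pos hu] at h2
    have h3 : PDiv p M m (∑ i, Phi hM P e η χ n (zz i) u y - orbitInd p T g h u) := by
      rw [orbitInd, if_pos hu, Finset.sum_range, ← Finset.sum_sub_distrib]
      refine PDiv.sum hM _ fun i _ => ?_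
      have hi : (g ^ (i : ℕ))⁻¹ * (u : G) * g ^ (i : ℕ) ∈ T := by
        have := (Subgroup.mem_normalizer_iff.1 (Subgroup.inv_mem _ (Subgroup.pow_mem _ hgn (i : ℕ))) (u : G)).1 hu
        simpa using this
      rw [dif_pos hi]
      have e : Phi hM P e η χ n (zz i) u y = Phi hM P e η χ n zj ((g ^ (i : ℕ))⁻¹ * (u : G) * g ^ (i : ℕ)) y := by
        have := phi_conj hM hst χ n (g ^ (i : ℕ)) (z := zj) (z' := zz i)
          (fun x => by simp only [hzz, coeff_cj]; congr 1; group) ((g ^ (i : ℕ))⁻¹ * (u : G) * g ^ (i : ℕ)) y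
        rw [show g ^ (i : ℕ) * ((g ^ (i : ℕ))⁻¹ * (u : G) * g ^ (i : ℕ)) * (g ^ (i : ℕ))⁻¹ = (u : G) by group,
          (hgy.pow_left (i : ℕ)).eq, mul_inv_cancel_right] at this
        exact this
      rw [e]
      exact hdiff ⟨_, hi⟩
    have := h2.add hM h3
    rwa [sub_add_sub_cancel] at this
  · rw [if_neg hu] at h2
    rw [orbitInd, if_neg hu]
    exact h2

end CfsgLib.Star
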