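import Cfsg.Agent.Blocks.NilBlock.Arith
import Cfsg.Agent.BrauerInd.IntSpan
import Cfsg.Agent.CharBasics.Induced
import Cfsg.Agent.Blocks.Star.Induction

/-!
# The product is an irreducible character of the block
-/

set_option autoImplicit false
set_option linter.unusedSectionVars false
set_option linter.style.haveILetI false

namespace CfsgLib.Star

open Cfsg CfsgLib.Blocks CfsgLib.CharBasics CfsgLib.PairAlg CfsgLib.NilBlock Polynomial
open scoped ComplexConjugate

attribute [local instance] CfsgLib.Blocks.residueField CfsgLib.Blocks.residue_charP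

universe u

variable {p : ℕ} [Fact p.Prime] {M : Ideal AlgInt} {G : Type u} [Group G] [Fintype G] (hM : IsPModular p M)

noncomputable local instance instFintypeSubgroupStarGlobal (K : Subgroup G) : Fintype K := Fintype.ofFinite K

/-- The conditions on the function of the defect group. -/
structure Admissible (P : Subgroup G) (e : Set (IrrCharacter (Subgroup.centralizer (P : Set G)))) (η : G → ℂ) : Prop where
  int : ∀ x, MemLocalRing M (η x)
  stable : Stable hM P e η
  ro : ∀ (Q : Subgroup G) (g : G), cm g Q ≤ P → RO M Q fun u => η (g * u * g⁻¹)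
  one : η 1 = 1
  unit : ∀ x ∈ P, η x * conj (η x) = 1
  poly : ∀ x ∈ P, ∃ R : ℤ[X], aeval (zetaRoot (p ^ (Nat.card G).factorization p)) R = η x

variable {P : Subgroup G} {e : Set (IrrCharacter (Subgroup.centralizer (P : Set G)))} {η : G → ℂ}
  {B : Set (IrrCharacter G)}

/-- The commuting decomposition of an elementary group. -/
theorem elementary_parts {E : Type u} [Group E] [Finite E] (hE : BrauerInd.IsElem E) :
    (∀ (S : Sylow p E) (u : E), (∃ k : ℕ, orderOf u = p ^ k) → u ∈ (S : Subgroup E)) ∧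
      ∀ u y : E, (∃ k : ℕ, orderOf u = p ^ k) → ¬ p ∣ orderOf y → Commute u y := by
  classical
  have hp := (Fact.out : p.Prime)
  obtain ⟨q, hq, x, hx, hco, k, hk⟩ := hE
  haveI hn : (Subgroup.zpowers x).Normal := ⟨fun a ha b => by
    have hac : a ∈ Subgroup.center E := (Subgroup.zpowers_le.2 hx) ha
    rw [Subgroup.mem_center_iff.1 hac b, mul_inv_cancel_right]
    exact ha⟩
  haveI := Fact.mk hq
  have hquot : IsPGroup q (E ⧸ Subgroup.zpowers x) := IsPGroup.of_card (by rw [← Subgroup.index_eq_card]; exact hk)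
  have hcentral : ∀ a : E, ¬ q ∣ orderOf a → a ∈ Subgroup.center E := by
    intro a ha
    refine Subgroup.zpowers_le.2 hx ((QuotientGroup.eq_one_iff a).1 ?_)
    obtain ⟨j, hj⟩ := hquot.exists_card_eq
    have h1 : orderOf (a : E ⧸ Subgroup.zpowers x) ∣ orderOf a := orderOf_map_dvd (QuotientGroup.mk' _) a
    have h2 : orderOf (a : E ⧸ Subgroup.zpowers x) ∣ q ^ j := hj ▸ orderOf_dvd_natCard _
    exact orderOf_eq_one_iff.1 (Nat.eq_one_of_dvd_coprimes (((hq.coprime_iff_not_dvd).2 ha).pow_left j) h2 h1)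
  haveI : Group.IsNilpotent (E ⧸ Subgroup.zpowers x) := hquot.isNilpotent
  haveI : Group.IsNilpotent E := Subgroup.isNilpotent_of_ker_le_center (QuotientGroup.mk' (Subgroup.zpowers x))
    (by rw [QuotientGroup.ker_mk']; exact Subgroup.zpowers_le.2 hx)
  haveI : Fintype E := Fintype.ofFinite E
  refine ⟨fun S u hu => ?_, fun u y hu hy => ?_⟩
  · haveI : (S : Subgroup E).Normal := Sylow.normal_of_normalizerCondition normalizerCondition_of_isNilpotent S
    obtain ⟨S', hS'⟩ := (ZStar.isPGroup_zpowers hp hu).exists_le_sylow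
    haveI := Sylow.unique_of_normal S inferInstance
    rw [Subsingleton.elim S S']
    exact hS' (Subgroup.mem_zpowers u)
  · by_cases hqp : q = p
    · subst hqp
      exact Subgroup.mem_center_iff.1 (hcentral y hy) u
    · obtain ⟨j, hj⟩ := hu
      refine (Subgroup.mem_center_iff.1 (hcentral u ?_) y).symm
      rw [hj]
      exact fun hd => hqp ((Nat.prime_dvd_prime_iff_eq hq hp).1 (hq.dvd_of_dvd_pow hd))

theorem sum_mul_kernel_of_ne (hM : IsPModular p M) {x : G} {b b' : Set (IrrCharacter (cen x))} (hb : IsPBlock M b)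
    (hb' : IsPBlock M b') (hne : b' ≠ b) (χ : G → ℂ) (y : cen x) :
    ∑ z : cen x, secVal p x b' χ z * blockKernel b y z = 0 := by
  classical
  haveI : Fintype (IrrCharacter (cen x)) := @Fintype.ofFinite _ finite_irrCharacter
  simp only [blockKernel_eq, Finset.mul_sum]
  rw [Finset.sum_comm]
  refine Finset.sum_eq_zero fun ξ hξ => ?_
  have e : ∀ z : cen x, secVal p x b' χ z * ((ξ : cen x → ℂ) y * conj ((ξ : cen x → ℂ) z)) =
      ∑ η ∈ memFinset b', classInner (shiftFun x χ) (η : cen x → ℂ) * (ξ : cen x → ℂ) y *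
        (if p ∣ orderOf z then 0 else (η : cen x → ℂ) z * conj ((ξ : cen x → ℂ) z)) := by
    intro z
    simp only [secVal, ZStar.blockPart_apply, ← Finset.sum_filter, ← memFinset_eq]
    split_ifs
    · simp
    · rw [Finset.sum_mul]
      exact Finset.sum_congr rfl fun η _ => by ring
  rw [Finset.sum_congr rfl fun z _ => e z, Finset.sum_comm]
  refine Finset.sum_eq_zero fun η hη => ?_
  rw [← Finset.mul_sum]
  have h := regSum_eq_zero hM hb' hb hne (mem_memFinset.1 hη) ((Finset.mem_filter.1 hξ).2)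
  rw [regSum] at h
  rw [h, mul_zero]

/-- The subsections of the product. -/
theorem secVal_star (χ : IrrCharacter G) {u : G} (hu : ∃ k : ℕ, orderOf u = p ^ k) {b : Set (IrrCharacter (cen u))}
    (hb : IsPBlock M b) (y : cen u) :
    secVal p u b (star hM P e η χ) y = ev hM P e η u (bb hM u b) * secVal p u b (χ : G → ℂ) y := by
  classical
  letI : Fintype (IrrCharacter (cen u)) := @Fintype.ofFinite _ finite_irrCharacter
  by_cases hy : p ∣ orderOf y
  · simp [secVal, hy]
  have e : ∀ z : cen u, (if p ∣ orderOf z then 0 else shiftFun u (star hM P e η χ) z) * blockKernel b y z =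
      ∑ b' ∈ blockFinset M (cen u), ev hM P e η u (bb hM u b') * (secVal p u b' (χ : G → ℂ) z * blockKernel b y z) := by
    intro z
    split_ifs with hz
    · rw [zero_mul, Finset.sum_eq_zero fun b' _ => by rw [secVal, if_pos hz, zero_mul, mul_zero]]
    · rw [shiftFun, star_mul_eq_sum hM P e η χ hu z hz, Finset.sum_mul]
      exact Finset.sum_congr rfl fun b' _ => by ring
  rw [secVal_eq_kernel hM hb _ hy, Finset.sum_congr rfl fun z _ => e z, Finset.sum_comm,
    Finset.sum_eq_single_of_mem b (mem_blockFinset.2 hb)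
      (fun b' hb' hne => by rw [← Finset.mul_sum, sum_mul_kernel_of_ne hM hb (mem_blockFinset.1 hb') hne, mul_zero]),
    ← Finset.mul_sum, Finset.sum_congr rfl fun z _ => mul_comm _ _, sum_kernel_secVal hM hb _ hy]
  field_simp [Nat.cast_ne_zero.2 (Nat.card_pos (α := cen u)).ne']

include hM in
/-- Products of combinations of subsections on a section. -/
theorem sum_section_product {u : G} [Fintype (IrrCharacter (cen u))] (α β : Set (IrrCharacter (cen u)) → ℂ)
    {φ ψ : G → ℂ} (hφ : IsClassFunction G φ) (hψ : IsClassFunction G ψ) :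
    ∑ y : cen u, (∑ b ∈ blockFinset M (cen u), α b * secVal p u b φ y) *
        conj (∑ b ∈ blockFinset M (cen u), β b * secVal p u b ψ y) =
      ∑ b ∈ blockFinset M (cen u), α b * conj (β b) * KS p u (coef u b) φ ψ := by
  classical
  simp only [map_sum, map_mul, Finset.sum_mul_sum]
  rw [Finset.sum_comm]
  refine Finset.sum_congr rfl fun b hb => ?_
  rw [Finset.sum_comm, Finset.sum_eq_single_of_mem b hb]
  · rw [KS_eq_sum_secVal u b hφ hψ, Finset.mul_sum]
    exact Finset.sum_congr rfl fun y _ => by ring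
  · intro b' hb' hne
    rw [Finset.sum_congr rfl (g := fun y : cen u => α b * conj (β b') * (secVal p u b φ y * conj (secVal p u b' ψ y)))
      fun y _ => by ring, ← Finset.mul_sum,
      sum_secVal_cross hM (mem_blockFinset.1 hb) (mem_blockFinset.1 hb') (Ne.symm hne), mul_zero]

include hM in
/-- Values of a class function on a section. -/
theorem regular_eq_sum_secVal {u : G} [Fintype (IrrCharacter (cen u))] {ψ : G → ℂ} (hψ : IsClassFunction G ψ) (y : cen u) :
    (if p ∣ orderOf y then 0 else ψ (u * y)) = ∑ b ∈ blockFinset M (cen u), secVal p u b ψ y := by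
  classical
  simp only [secVal]
  split_ifs with hy
  · simp
  · exact (sum_blockPart hM (isClassFunction_shiftFun hψ) y).symm

variable (hη : Admissible hM P e η) (hmax : IsMaximalBrauerPair p M B P e) (hB : IsPBlock M B)
  {χ : IrrCharacter G} (hχ : χ ∈ B)
include hη hmax hB hχ

theorem exists_orderOf_p {x : G} (hx : x ∈ P) : ∃ k : ℕ, orderOf x = p ^ k :=
  exists_orderOf_eq_of_mem hmax.1.1.1 hx

/-- On a subsection where `χ` does not vanish the weight has absolute value one. -/
theorem ev_mul_conj {u : G} (hu : ∃ k : ℕ, orderOf u = p ^ k) {b : Set (IrrCharacter (cen u))} (hb : IsPBlock M b) :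
    (∀ y, secVal p u b (χ : G → ℂ) y = 0) ∨ ev hM P e η u (bb hM u b) * conj (ev hM P e η u (bb hM u b)) = 1 := by
  by_cases hind : IsInducedBlock M (cen u) b B
  · obtain ⟨g, hg, he⟩ := exists_ev_eq hM hmax hη.stable ((induced_iff_ofBlk hM hu hb hB).1 hind)
    exact Or.inr (by rw [he]; exact hη.unit _ hg)
  · exact Or.inl (secVal_eq_zero hM hu hb hB hχ hind)

theorem classInner_star_self : classInner (star hM P e η χ) (star hM P e η χ) = 1 := by
  classical
  have hp := (Fact.out : p.Prime)
  haveI : Fintype (IrrCharacter G) := @Fintype.ofFinite _ finite_irrCharacter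
  have hχc := isClassFunction (isCharacter_of_irr χ.2)
  have hS : ∀ x, x ∈ (Finset.univ.filter fun x : G => ∃ k : ℕ, orderOf x = p ^ k) ↔ ∃ k : ℕ, orderOf x = p ^ k := fun x => by simp
  have key : ∀ x ∈ (Finset.univ.filter fun x : G => ∃ k : ℕ, orderOf x = p ^ k),
      (∑ y : cen x, if p ∣ orderOf y then 0 else star hM P e η χ (x * y) * conj (star hM P e η χ (x * y))) =
        ∑ y : cen x, if p ∣ orderOf y then 0 else (χ : G → ℂ) (x * y) * conj ((χ : G → ℂ) (x * y)) := by
    intro x hx
    letI : Fintype (IrrCharacter (cen x)) := @Fintype.ofFinite _ finite_irrCharacter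
    have hxp := (hS x).1 hx
    have e1 : ∀ y : cen x, (if p ∣ orderOf y then 0 else star hM P e η χ (x * y) * conj (star hM P e η χ (x * y))) =
        (∑ b ∈ blockFinset M (cen x), ev hM P e η x (bb hM x b) * secVal p x b (χ : G → ℂ) y) *
          conj (∑ b ∈ blockFinset M (cen x), ev hM P e η x (bb hM x b) * secVal p x b (χ : G → ℂ) y) := fun y => by
      split_ifs with hy
      · simp [secVal, hy]
      · rw [star_mul_eq_sum hM P e η χ hxp y hy]
    have e2 : ∀ y : cen x, (if p ∣ orderOf y then 0 else (χ : G → ℂ) (x * y) * conj ((χ : G → ℂ) (x * y))) =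
        (∑ b ∈ blockFinset M (cen x), 1 * secVal p x b (χ : G → ℂ) y) *
          conj (∑ b ∈ blockFinset M (cen x), 1 * secVal p x b (χ : G → ℂ) y) := fun y => by
      simp only [one_mul, ← regular_eq_sum_secVal hM hχc y]
      split_ifs <;> simp
    rw [Finset.sum_congr rfl fun y _ => e1 y, Finset.sum_congr rfl fun y _ => e2 y,
      sum_section_product hM _ _ hχc hχc, sum_section_product hM _ _ hχc hχc]
    refine Finset.sum_congr rfl fun b hb => ?_
    rcases ev_mul_conj hM hη hmax hB hχ hxp (mem_blockFinset.1 hb) with h | h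
    · rw [KS_eq_sum_secVal x b hχc hχc, Finset.sum_eq_zero fun y _ => by rw [h y, zero_mul]]
      simp
    · rw [h, map_one, mul_one]
  calc classInner (star hM P e η χ) (star hM P e η χ)
      = classInner (χ : G → ℂ) (χ : G → ℂ) := by
        rw [classInner_eq, classInner_eq, sum_by_sections hp _ _ hS, sum_by_sections hp _ _ hS, Finset.sum_congr rfl key]
    _ = 1 := by rw [classInner_irr χ χ, if_pos rfl]

theorem classInner_star_of_notMem {ψ : IrrCharacter G} (hψ : ψ ∉ B) : classInner (star hM P e η χ) (ψ : G → ℂ) = 0 := by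
  classical
  have hp := (Fact.out : p.Prime)
  rw [classInner_eq, sum_by_sections hp _ (Finset.univ.filter fun x : G => ∃ k : ℕ, orderOf x = p ^ k) (fun x => by simp),
    Finset.sum_eq_zero, mul_zero]
  intro x hx
  letI : Fintype (IrrCharacter (cen x)) := @Fintype.ofFinite _ finite_irrCharacter
  have hxp := (Finset.mem_filter.1 hx).2
  have e1 : ∀ y : cen x, (if p ∣ orderOf y then 0 else star hM P e η χ (x * y) * conj ((ψ : G → ℂ) (x * y))) =
      (∑ b ∈ blockFinset M (cen x), ev hM P e η x (bb hM x b) * secVal p x b (χ : G → ℂ) y) *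
        conj (∑ b ∈ blockFinset M (cen x), 1 * secVal p x b (ψ : G → ℂ) y) := fun y => by
    simp only [one_mul, ← regular_eq_sum_secVal hM (isClassFunction (isCharacter_of_irr ψ.2)) y]
    split_ifs with hy
    · simp
    · rw [star_mul_eq_sum hM P e η χ hxp y hy]
  rw [Finset.sum_congr rfl fun y _ => e1 y,
    sum_section_product hM _ _ (isClassFunction (isCharacter_of_irr χ.2)) (isClassFunction (isCharacter_of_irr ψ.2))]
  refine Finset.sum_eq_zero fun b hb => ?_
  rw [KS_eq_sum_secVal x b (isClassFunction (isCharacter_of_irr χ.2)) (isClassFunction (isCharacter_of_irr ψ.2)),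
    Finset.sum_eq_zero, mul_zero]
  intro y _
  by_cases hind : IsInducedBlock M (cen x) b B
  · rw [secVal_eq_zero_of_notMem' hM hxp hind hψ, map_zero, mul_zero]
  · rw [secVal_eq_zero hM hxp (mem_blockFinset.1 hb) hB hχ hind, zero_mul]

theorem star_one : star hM P e η χ 1 = (χ : G → ℂ) 1 := by
  classical
  have h1 : ¬ p ∣ orderOf (1 : cen (1 : G)) := by rw [orderOf_one]; exact (Fact.out : p.Prime).not_dvd_one
  letI : Fintype (IrrCharacter (cen (1 : G))) := @Fintype.ofFinite _ finite_irrCharacter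
  have hu : ∃ k : ℕ, orderOf (1 : G) = p ^ k := ⟨0, by rw [orderOf_one, pow_zero]⟩
  have eχ := regular_eq_sum_secVal (p := p) hM (isClassFunction (isCharacter_of_irr χ.2)) (1 : cen (1 : G))
  have e' := star_mul_eq_sum hM P e η χ hu (1 : cen (1 : G)) h1
  rw [if_neg h1] at eχ
  rw [Subgroup.coe_one, one_mul] at eχ e'
  rw [eχ, e']
  refine Finset.sum_congr rfl fun b hb => ?_
  by_cases hind : IsInducedBlock M (cen (1 : G)) b B
  · obtain ⟨g, -, he⟩ := exists_ev_eq hM hmax hη.stable ((induced_iff_ofBlk hM hu (mem_blockFinset.1 hb) hB).1 hind)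
    rw [he, show g * 1 * g⁻¹ = (1 : G) by group, hη.one, one_mul]
  · rw [secVal_eq_zero hM hu (mem_blockFinset.1 hb) hB hχ hind, mul_zero]

/-- The multiplicities are local integers. -/
theorem memLocalRing_inner (ψ : IrrCharacter G) : MemLocalRing M (classInner (star hM P e η χ) (ψ : G → ℂ)) := by
  classical
  have hp := (Fact.out : p.Prime)
  set f := star hM P e η χ with hfdef
  have hfc : IsClassFunction G f := star_isClassFunction hM hη.stable χ
  let S : AddSubgroup (G → ℂ) :=
    { carrier := {θ | MemLocalRing M (classInner θ (ψ : G → ℂ))}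
      zero_mem' := by simp [classInner_eq, memLocalRing_zero hM]
      add_mem' := fun {a b} ha hb => by simp only [Set.mem_setOf_eq, classInner_add_left] at *; exact memLocalRing_add hM ha hb
      neg_mem' := fun {a} ha => by
        have : classInner (-a) (ψ : G → ℂ) = -classInner a (ψ : G → ℂ) := by simp [classInner_eq]
        simp only [Set.mem_setOf_eq, this] at *
        exact memLocalRing_neg ha }
  suffices h : ∀ (E : Subgroup G) (l : E →* ℂˣ), BrauerInd.IsElem E →
      Cfsg.indFun E (fun a : E => f a * (l a : ℂ)) ∈ S by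
    have := BrauerInd.mul_mem_of_forall hfc S h (BrauerInd.isCharacter_mem_monomialSpan (isCharacter_of_irr isIrrCharacter_one))
    rw [show f * (fun _ => 1 : G → ℂ) = f from mul_one f] at this
    exact this
  intro E l hE
  show MemLocalRing M (classInner _ _)
  rw [CharBasics.classInner_indFun E _ (isClassFunction (isCharacter_of_irr ψ.2))]
  obtain ⟨hsyl, hcomm⟩ := elementary_parts (p := p) hE
  set θ : E → ℂ := fun a => (l a : ℂ) * conj ((ψ : G → ℂ) a) with hθ
  have hθc : IsCharacter E θ :=
    isCharacter_mul (BrauerInd.isCharacter_linear l) (isCharacter_star (isCharacter_restrict (isCharacter_of_irr ψ.2) E))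
  have e0 : classInner (fun a : E => f a * (l a : ℂ)) (fun a : E => (ψ : G → ℂ) a) =
      (Nat.card E : ℂ)⁻¹ * ∑ a : E, f a * θ a := by
    rw [classInner_eq]
    congr 1
    exact Finset.sum_congr rfl fun a _ => by rw [hθ]; ring
  rw [e0]
  obtain ⟨S₀⟩ : Nonempty (Sylow p E) := inferInstance
  set Q : Subgroup E := (S₀ : Subgroup E) with hQdef
  have hQp : IsPGroup p Q := S₀.isPGroup'
  set R := Finset.univ.filter fun y : E => ¬ p ∣ orderOf y with hR
  obtain ⟨pe, hpe⟩ := exists_pp (G := E) hp
  -- every element is uniquely a product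
  have hbij : ∀ F : E → ℂ, ∑ a : E, F a = ∑ y ∈ R, ∑ v : Q, F ((v : E) * y) := by
    intro F
    rw [Finset.sum_sigma' R (fun _ => Finset.univ)]
    refine (Finset.sum_bij' (fun a _ => (⟨(pe a)⁻¹ * a, ⟨pe a, hsyl S₀ _ (hpe a).choose_spec.2.2.1⟩⟩ : Σ _ : E, Q))
      (fun x _ => (x.2 : E) * x.1) (fun a _ => ?_) (fun _ _ => Finset.mem_univ _) (fun a _ => by simp)
      (fun x hx => ?_) (fun a _ => by simp))
    · obtain ⟨y, hy, -, -, hyr⟩ := hpe a
      simp only [Finset.mem_sigma, Finset.mem_univ, and_true, hR, Finset.mem_filter, true_and]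
      rwa [inv_mul_eq_iff_eq_mul.2 hy.symm]
    · obtain ⟨y, v⟩ := x
      simp only [Finset.mem_sigma, Finset.mem_univ, and_true, hR, Finset.mem_filter, true_and] at hx
      obtain ⟨k, hk⟩ := IsPGroup.iff_orderOf.1 hQp v
      rw [← Subgroup.orderOf_coe] at hk
      have h : pe ((v : E) * y) = v := isPPart_unique hp (hpe _) ⟨y, rfl, hcomm _ _ ⟨k, hk⟩ hx, ⟨k, hk⟩, hx⟩
      simp [h]
  have hRcard : Nat.card E = R.card * Nat.card Q := by
    have := hbij fun _ => 1
    simp only [Finset.sum_const, Finset.card_univ, nsmul_eq_mul, mul_one, ← Nat.card_eq_fintype_card] at this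
    exact_mod_cast this
  have hRp : ¬ p ∣ R.card := by
    intro hd
    have h1 := S₀.not_dvd_index
    have h2 := Subgroup.card_mul_index Q
    rw [hRcard, mul_comm R.card] at h2
    rw [Nat.eq_of_mul_eq_mul_left Nat.card_pos h2] at h1
    exact h1 hd
  rw [hbij (fun a => f a * θ a), hRcard, Nat.cast_mul, mul_inv, mul_assoc, Finset.mul_sum]
  refine memLocalRing_mul hM (memLocalRing_natCast_inv hM hRp) (memLocalRing_sum hM _ fun y hy => ?_)
  have hyr : ¬ p ∣ orderOf y := (Finset.mem_filter.1 hy).2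
  set Q' : Subgroup G := Q.map E.subtype with hQ'
  have hQ'p : IsPGroup p Q' := hQp.map _
  have hyC : (y : G) ∈ Subgroup.centralizer (Q' : Set G) := by
    refine Subgroup.mem_centralizer_iff.2 ?_
    rintro _ ⟨v, hv, rfl⟩
    obtain ⟨k, hk⟩ := IsPGroup.iff_orderOf.1 hQp ⟨v, hv⟩
    rw [Subgroup.orderOf_mk] at hk
    exact congrArg Subtype.val (hcomm v y ⟨k, hk⟩ hyr).eq
  have hyo : ¬ p ∣ orderOf (y : G) := by rwa [Subgroup.orderOf_coe]
  set m := (Nat.card Q').factorization p with hm
  have hcardQ : Nat.card Q' = p ^ m := by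
    obtain ⟨j, hj⟩ := hQ'p.exists_card_eq
    rw [hm, hj, Nat.factorization_pow, Finsupp.smul_apply, hp.factorization_self, smul_eq_mul, mul_one]
  have hone : ∀ x : G, cj x (1 : MonoidAlgebra ℂ G) = 1 := fun x => map_one _
  have hup1 : upG hM (1 : MonoidAlgebra ℂ G) = 1 := up_one hM (MonoidHom.id G)
  obtain ⟨n₀, hn₀⟩ := good_all hM χ hη.int hη.stable hmax hη.ro hyo (Nat.card Q') Q' rfl hQ'p hyC 1
    (isIntegralElt_one hM) (fix_one Q') (hone _) (by rw [hup1, mul_one]) m
  obtain ⟨g, hg, hgd⟩ := hn₀ n₀ le_rfl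
  have hfy : ∀ v : Q', f ((v : G) * y) = Phi hM P e η χ n₀ 1 v (y : G) := by
    intro v
    obtain ⟨k, hk⟩ := IsPGroup.iff_orderOf.1 hQ'p v
    rw [hfdef, star_mul hM χ ⟨k, by rwa [Subgroup.orderOf_coe]⟩ (Subgroup.mem_centralizer_iff.1 hyC _ v.2) hyo]
    simp only [Phi, ZStar.res_one, one_pow]
  have hF : RO M Q' fun v => f ((v : G) * y) := by
    have hcls : IsClassFunction Q' fun v => f ((v : G) * y) := fun a c => by
      show f ((c * a * c⁻¹ : Q') * (y : G)) = f ((a : G) * (y : G))
      rw [← hfc ((a : G) * y) (c : G)]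
      refine congrArg f ?_
      push_cast
      have hcy : Commute (c : G) (y : G) := Subgroup.mem_centralizer_iff.1 hyC _ c.2
      rw [mul_assoc _ _ (y : G), hcy.inv_left.eq]
      group
    have hd : RO M Q' ((fun v : Q' => f ((v : G) * y)) + (-1 : ℂ) • g) := ro_of_pdiv hM
      (fun a c => congrArg₂ (fun s t : ℂ => s + (-1) * t) (hcls a c) (hg.1 a c)) (m := m) (by rw [hcardQ])
      (fun v => by
        show PDiv p M m (f ((v : G) * y) + (-1 : ℂ) * g v)
        rw [hfy, neg_one_mul, ← sub_eq_add_neg]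
        exact hgd v)
    have := RO.sum hM Finset.univ (fun i : Bool => bif i then g else (fun v : Q' => f ((v : G) * y)) + (-1 : ℂ) • g)
      (fun i _ => by cases i; exacts [hd, hg])
    convert this using 1
    funext v
    simp only [Fintype.sum_bool, cond_true, cond_false, Pi.add_apply, Pi.smul_apply, smul_eq_mul]
    ring
  obtain ⟨n, ρ, hρ⟩ := id hθc
  have hθQ : RO M Q' fun v => θ (⟨v, Subgroup.map_subtype_le _ v.2⟩ * y) := by
    have hw : ∀ a : E, MemLocalRing M ((MonoidAlgebra.single y (1 : ℂ)).coeff a) := isIntegralElt_single hM y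
    have h := ro_apply_mul (P := Q) hM hθc hw (fun v hv a => by
      obtain ⟨k, hk⟩ := IsPGroup.iff_orderOf.1 hQp ⟨v, hv⟩
      rw [Subgroup.orderOf_mk] at hk
      have hvy : v * y = y * v := (hcomm v y ⟨k, hk⟩ hyr).eq
      simp only [MonoidAlgebra.coeff_single, Finsupp.single_apply, eq_comm (a := y)]
      exact if_congr ⟨fun h => mul_left_cancel (a := v) ((mul_inv_eq_iff_eq_mul.1 h).trans hvy.symm),
        fun h => by rw [h, hvy, mul_inv_cancel_right]⟩ rfl rfl)
    set iso : Q ≃* Q' := Q.equivMapOfInjective E.subtype E.subtype_injective with hiso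
    have hh : ∀ v : Q, (∑ a : E, (MonoidAlgebra.single y (1 : ℂ)).coeff a * θ ((v : E) * a)) = θ ((v : E) * y) := fun v => by
      simp [MonoidAlgebra.coeff_single, Finsupp.single_apply]
    refine ⟨fun a c => ?_, fun φ => ?_⟩
    · have := h.1 (iso.symm a) (iso.symm c)
      beta_reduce at this
      rw [hh, hh] at this
      obtain ⟨a', rfl⟩ := iso.surjective a
      obtain ⟨c', rfl⟩ := iso.surjective c
      simp only [MulEquiv.symm_apply_apply] at this
      exact this
    · have h2 := h.2 (pushChar iso.symm φ)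
      rw [classInner_eq] at h2 ⊢
      rw [← Nat.card_congr iso.toEquiv]
      convert h2 using 2
      refine (Fintype.sum_equiv iso.toEquiv _ _ fun v => ?_).symm
      rw [hh, pushChar_apply, MulEquiv.symm_symm]
      rfl
  haveI : Fintype (IrrCharacter Q') := @Fintype.ofFinite _ finite_irrCharacter
  have h3 := (hF.mul hM hθQ).2 ⟨fun _ => 1, isIrrCharacter_one⟩
  rw [classInner_eq] at h3
  convert h3 using 1
  set iso : Q ≃* Q' := Q.equivMapOfInjective E.subtype E.subtype_injective with hiso
  rw [← Nat.card_congr iso.toEquiv]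
  congr 1
  refine Fintype.sum_equiv iso.toEquiv _ _ fun v => ?_
  simp only [map_one, mul_one, Pi.mul_apply]
  rfl

/-- The multiplicities are cyclotomic integers of `p`-power level. -/
theorem exists_inner_poly (ψ : IrrCharacter G) :
    ∃ R : ℤ[X], aeval (zetaRoot (p ^ (Nat.card G).factorization p)) R = classInner (star hM P e η χ) (ψ : G → ℂ) := by
  classical
  have hp := (Fact.out : p.Prime)
  set a := (Nat.card G).factorization p with ha
  set ζ := zetaRoot (p ^ a) with hζ
  haveI : Fintype (ConjClasses G) := Fintype.ofFinite _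
  set f := star hM P e η χ with hfdef
  have hfc : IsClassFunction G f := star_isClassFunction hM hη.stable χ
  have hψc := isClassFunction (isCharacter_of_irr ψ.2)
  set S := Finset.univ.filter fun x : G => ∃ k : ℕ, orderOf x = p ^ k with hS
  set φ : G → ℂ := fun x => ∑ y : cen x, if p ∣ orderOf y then 0 else f (x * y) * conj ((ψ : G → ℂ) (x * y)) with hφ
  have hφc : ∀ x g : G, φ (g * x * g⁻¹) = φ x := fun x g => by
    refine (Fintype.sum_equiv (cenConj g x).toEquiv _ _ fun y => ?_).symm
    have h1 : orderOf (cenConj g x y) = orderOf y := (cenConj g x).orderOf_eq y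
    simp only [MulEquiv.toEquiv_eq_coe, EquivLike.coe_coe, h1]
    refine if_congr Iff.rfl rfl ?_
    rw [show g * x * g⁻¹ * ((cenConj g x y : cen (g * x * g⁻¹)) : G) = g * (x * y) * g⁻¹ by
      show g * x * g⁻¹ * (g * y * g⁻¹) = _; group, hfc, hψc]
  have hterm : ∀ x ∈ S, ∃ R : ℤ[X], φ x / (Nat.card (cen x) : ℂ) = aeval ζ R / (p : ℂ) ^ a := by
    intro x hx
    letI : Fintype (IrrCharacter (cen x)) := @Fintype.ofFinite _ finite_irrCharacter
    obtain ⟨k, hk⟩ := (Finset.mem_filter.1 hx).2
    have hxN : orderOf x ∣ p ^ a := by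
      rw [hk, Nat.dvd_prime_pow hp]
      refine ⟨k, ?_, rfl⟩
      rw [ha, ← hp.pow_dvd_iff_le_factorization Nat.card_pos.ne', ← hk]
      exact orderOf_dvd_natCard x
    have e1 : φ x = ∑ b ∈ blockFinset M (cen x), ev hM P e η x (bb hM x b) * 1 * KS p x (coef x b) (χ : G → ℂ) (ψ : G → ℂ) := by
      have h := sum_section_product (p := p) (u := x) hM (fun b => ev hM P e η x (bb hM x b)) (fun _ => 1)
        (isClassFunction (isCharacter_of_irr χ.2)) hψc
      simp only [map_one] at h
      rw [← h, hφ]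
      refine Finset.sum_congr rfl fun y _ => ?_
      simp only [one_mul, ← regular_eq_sum_secVal hM hψc y]
      split_ifs with hy
      · simp
      · rw [hfdef, star_mul_eq_sum hM P e η χ ⟨k, hk⟩ y hy]
    have hb : ∀ b ∈ blockFinset M (cen x), ∃ R : ℤ[X],
        ev hM P e η x (bb hM x b) * KS p x (coef x b) (χ : G → ℂ) (ψ : G → ℂ) / (Nat.card (cen x) : ℂ) =
          aeval ζ R / (p : ℂ) ^ a := by
      intro b hb
      by_cases hex : ∃ g, LE' p ⊤ (cm g (Subgroup.zpowers x)) (cj g (bb hM x b)) P (bc hM P e)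
      swap
      · exact ⟨0, by rw [ev_of_not hM hex]; simp⟩
      obtain ⟨g, hg⟩ := hex
      have hgP : g * x * g⁻¹ ∈ P := by
        have := hg.subgroup_le
        rwa [cm_zpowers, Subgroup.zpowers_le] at this
      obtain ⟨R₀, hR₀⟩ := hη.poly _ hgP
      obtain ⟨ξ₀, -, hmin₀, -⟩ := exists_min_degExp hM (mem_blockFinset.1 hb)
      set d := (Nat.card (cen x)).factorization p - degExp p ξ₀ with hd
      have hda : d ≤ a := le_trans (Nat.sub_le _ _)
        ((Nat.factorization_le_iff_dvd Nat.card_pos.ne' Nat.card_pos.ne').2 (Subgroup.card_subgroup_dvd_card _) p)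
      refine ⟨R₀ * contribPoly p (p ^ a) x b (degExp p ξ₀) χ ψ * (X ^ 0 * Polynomial.C ((p : ℤ) ^ (a - d))), ?_⟩
      rw [ev_of_le hM hη.stable hg, map_mul, map_mul, hR₀,
        aeval_contribPoly hM (pow_ne_zero _ hp.ne_zero) hxN hmin₀, ← hd,
        KS_eq_sum_secVal x b (isClassFunction (isCharacter_of_irr χ.2)) hψc]
      have hpd : (p : ℂ) ^ a = (p : ℂ) ^ d * (p : ℂ) ^ (a - d) := by rw [← pow_add, Nat.add_sub_cancel' hda]
      have hp0 : (p : ℂ) ≠ 0 := Nat.cast_ne_zero.2 hp.ne_zero
      simp only [pow_zero, one_mul, map_pow, map_natCast]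
      rw [hpd]
      field_simp
    choose R hR using hb
    refine ⟨∑ b ∈ (blockFinset M (cen x)).attach, R b.1 b.2, ?_⟩
    rw [e1, map_sum, Finset.sum_div, Finset.sum_div,
      ← Finset.sum_attach (blockFinset M (cen x))]
    exact Finset.sum_congr rfl fun b _ => by rw [mul_one]; exact hR b.1 b.2
  have hc : classInner f (ψ : G → ℂ) =
      ∑ C ∈ S.image ConjClasses.mk, φ C.out / (Nat.card (cen C.out) : ℂ) := by
    rw [classInner_eq, sum_by_sections hp _ S (fun x => by simp [hS]), Finset.mul_sum,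
      ← Finset.sum_fiberwise_of_maps_to (g := ConjClasses.mk) (t := S.image ConjClasses.mk) (fun x hx => Finset.mem_image_of_mem _ hx)]
    refine Finset.sum_congr rfl fun C hC => ?_
    obtain ⟨x₀, hx₀, rfl⟩ := Finset.mem_image.1 hC
    set r := (ConjClasses.mk x₀).out with hr
    have hrx : IsConj x₀ r := (ConjClasses.mk_eq_mk_iff_isConj.1 (Quotient.out_eq (ConjClasses.mk x₀))).symm
    have hmem : ∀ z : G, IsConj r z → z ∈ S := fun z hz => by
      obtain ⟨c, hc⟩ := isConj_iff.1 (hrx.trans hz)
      obtain ⟨k, hk⟩ := (Finset.mem_filter.1 hx₀).2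
      exact Finset.mem_filter.2 ⟨Finset.mem_univ _, k, by rw [← hc, ← hk]; exact (MulAut.conj c).orderOf_eq x₀⟩
    have hcls : (S.filter fun x => ConjClasses.mk x = ConjClasses.mk x₀) = Finset.univ.filter fun x => IsConj r x := by
      ext z
      simp only [Finset.mem_filter, Finset.mem_univ, true_and, ConjClasses.mk_eq_mk_iff_isConj]
      exact ⟨fun h => hrx.symm.trans h.2.symm, fun h => ⟨hmem z h, (hrx.trans h).symm⟩⟩
    rw [hcls, Finset.sum_congr rfl (g := fun _ => (Nat.card G : ℂ)⁻¹ * φ r) fun z hz => by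
      obtain ⟨c, hc⟩ := isConj_iff.1 (Finset.mem_filter.1 hz).2
      rw [← hc]
      exact congrArg _ (hφc r c), Finset.sum_const, nsmul_eq_mul]
    have hcount : ((Finset.univ.filter fun x => IsConj r x).card : ℂ) = ((Subgroup.centralizer ({r} : Set G)).index : ℂ) := by
      rw [← card_conjClass, Nat.card_eq_fintype_card (α := {w // IsConj r w}), Fintype.card_subtype]
    rw [hcount, ← Subgroup.card_mul_index (cen r), Nat.cast_mul, mul_inv]
    field_simp [Nat.cast_ne_zero.2 (Subgroup.index_ne_zero_of_finite (H := cen r))]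
  have hrep : ∀ C ∈ S.image ConjClasses.mk, ∃ R : ℤ[X], φ C.out / (Nat.card (cen C.out) : ℂ) = aeval ζ R / (p : ℂ) ^ a := by
    intro C hC
    obtain ⟨x, hx, rfl⟩ := Finset.mem_image.1 hC
    refine hterm _ (Finset.mem_filter.2 ⟨Finset.mem_univ _, ?_⟩)
    obtain ⟨c, hc⟩ := isConj_iff.1 (ConjClasses.mk_eq_mk_iff_isConj.1 (Quotient.out_eq (ConjClasses.mk x))).symm
    obtain ⟨k, hk⟩ := (Finset.mem_filter.1 hx).2
    exact ⟨k, by rw [← hc, ← hk]; exact (MulAut.conj c).orderOf_eq x⟩
  choose R hR using hrep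
  have hloc := memLocalRing_inner hM hη hmax hB hχ ψ
  rw [← hfdef, hc, ← Finset.sum_attach, Finset.sum_congr rfl (g := fun C => aeval ζ (R C.1 C.2) / (p : ℂ) ^ a) fun C _ => hR C.1 C.2,
    ← Finset.sum_div, ← map_sum] at hloc
  obtain ⟨R', hR'⟩ := exists_poly_div hM a _ hloc
  refine ⟨R', ?_⟩
  rw [← hR', hc, ← Finset.sum_attach (S.image ConjClasses.mk),
    Finset.sum_congr rfl (g := fun C => aeval ζ (R C.1 C.2) / (p : ℂ) ^ a) fun C _ => hR C.1 C.2, ← Finset.sum_div,
    ← map_sum]

/-- The product is a member of the block of the same degree. -/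
theorem exists_irr_eq_star : ∃ ψ : IrrCharacter G, ψ ∈ B ∧ (ψ : G → ℂ) = star hM P e η χ ∧ (ψ : G → ℂ) 1 = (χ : G → ℂ) 1 := by
  classical
  haveI : Fintype (IrrCharacter G) := @Fintype.ofFinite _ finite_irrCharacter
  choose A hA using fun ψ => exists_inner_poly hM hη hmax hB hχ ψ
  set f := star hM P e η χ with hfdef
  have hfc : IsClassFunction G f := star_isClassFunction hM hη.stable χ
  have hexp := classFun_expand hfc
  have hnorm : ∑ ψ : IrrCharacter G, classInner f (ψ : G → ℂ) * conj (classInner f (ψ : G → ℂ)) = 1 := by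
    have h := classInner_star_self hM hη hmax hB hχ
    rw [← hfdef] at h
    conv_lhs at h => arg 1; rw [hexp]
    rw [classInner_sum_left] at h
    rw [← h]
    refine Finset.sum_congr rfl fun ψ _ => ?_
    rw [classInner_smul_left, classInner_comm f (ψ : G → ℂ)]
  obtain ⟨ψ, hψ1, hψ0⟩ := single_support (pow_ne_zero _ (Fact.out : p.Prime).ne_zero) A (by
    rw [← hnorm]; exact Finset.sum_congr rfl fun ψ _ => by rw [hA ψ])
  set c := classInner f (ψ : G → ℂ) with hc
  have hfψ : f = c • (ψ : G → ℂ) := by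
    conv_lhs => rw [hexp]
    exact Finset.sum_eq_single_of_mem ψ (Finset.mem_univ _) fun φ _ hφ => by rw [← hA φ, hψ0 φ hφ, zero_smul]
  have h1 := star_one hM hη hmax hB hχ
  rw [← hfdef, hfψ, Pi.smul_apply, smul_eq_mul, apply_one (isCharacter_of_irr ψ.2),
    apply_one (isCharacter_of_irr χ.2)] at h1
  have hd : (charDegree (ψ : G → ℂ) : ℂ) ≠ 0 := Nat.cast_ne_zero.2 (charDegree_pos ψ.2).ne'
  have hc1 : c = 1 := by
    have hn : ‖c‖ = 1 := by rw [hc, ← hA ψ]; exact hψ1
    have h2 := congrArg (fun z : ℂ => ‖z‖) h1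
    simp only [norm_mul, hn, one_mul, Complex.norm_natCast] at h2
    have h3 : (charDegree (ψ : G → ℂ) : ℂ) = (charDegree (χ : G → ℂ) : ℂ) := by exact_mod_cast h2
    exact mul_right_cancel₀ hd (by rw [h1, one_mul, h3])
  rw [hc1, one_smul] at hfψ
  refine ⟨ψ, ?_, hfψ.symm, ?_⟩
  · by_contra hψB
    have := classInner_star_of_notMem hM hη hmax hB hχ hψB
    rw [← hfdef, ← hc, hc1] at this
    exact one_ne_zero this
  · rw [← hfψ, hfdef, star_one hM hη hmax hB hχ]

end CfsgLib.Star
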