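import Mathlib

/-!
# Idempotents with orthogonal translates under an automorphism of prime order
-/

set_option autoImplicit false
set_option linter.unusedSectionVars false
set_option linter.style.haveILetI false

namespace CfsgLib.Star

open Module

section Rotate

variable {p : ℕ} {A : Type*} [AddCommMonoid A]

theorem sum_range_rotate (hp : 0 < p) (f : ℕ → A) (hf : f p = f 0) :
    ∑ i ∈ Finset.range p, f (i + 1) = ∑ i ∈ Finset.range p, f i := by
  obtain ⟨r, rfl⟩ : ∃ r, p = r + 1 := ⟨p - 1, by omega⟩
  conv_rhs => rw [Finset.sum_range_succ']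
  rw [Finset.sum_range_succ, hf]

end Rotate

variable {k : Type*} [Field k] {p : ℕ} [Fact p.Prime] [CharP k p]

/-- A unipotent operator satisfying the trace condition has a set of free generators. -/
theorem exists_free_projection {V : Type*} [AddCommGroup V] [Module k V] [FiniteDimensional k V]
    (s : Module.End k V) (hs : s ^ p = 1) (c : Module.End k V)
    (hc : ∑ i ∈ Finset.range p, s ^ i * c * s ^ (p - i) = 1) :
    ∃ j : Module.End k V, j * j = j ∧ (∀ i < p, i ≠ 0 → j * (s ^ i * j * s ^ (p - i)) = 0) ∧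
      (∀ i < p, i ≠ 0 → (s ^ i * j * s ^ (p - i)) * j = 0) ∧
      ∑ i ∈ Finset.range p, s ^ i * j * s ^ (p - i) = 1 := by
  classical
  have hp := (Fact.out : p.Prime)
  obtain ⟨r, hr⟩ : ∃ r, p = r + 1 := ⟨p - 1, by have := hp.pos; omega⟩
  haveI : CharP k p := inferInstance
  set N : Module.End k V := s - 1 with hN
  have hgeom : ∑ i ∈ Finset.range p, (Polynomial.X : Polynomial k) ^ i = (Polynomial.X - 1) ^ r := by
    have h1 := geom_sum_mul (Polynomial.X : Polynomial k) p
    have hXC : (Polynomial.X - 1 : Polynomial k) ≠ 0 := Polynomial.X_sub_C_ne_zero (1 : k)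
    refine mul_right_cancel₀ hXC ?_
    rw [h1, ← pow_succ, ← hr, sub_pow_char, one_pow]
  have hNr : ∑ i ∈ Finset.range p, s ^ i = N ^ r := by
    have h := congrArg (Polynomial.aeval s) hgeom
    simpa using h
  have hNp : N ^ p = 0 := by
    rw [hr, pow_succ, ← hNr, hN, geom_sum_mul, hs, sub_self]
  have hfix : ∀ v, N v = 0 → ∃ u, (N ^ r) u = v := by
    intro v hv
    refine ⟨c v, ?_⟩
    have hsv : ∀ i : ℕ, (s ^ i) v = v := fun i => by
      induction i with
      | zero => simp
      | succ i ih =>
        rw [pow_succ, Module.End.mul_apply]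
        have : s v = v := sub_eq_zero.1 (by simpa [hN] using hv)
        rw [this, ih]
    have h := LinearMap.congr_fun hc v
    simp only [LinearMap.sum_apply, Module.End.mul_apply, hsv, Module.End.one_apply] at h
    rw [← hNr, LinearMap.sum_apply]
    exact h
  have hker : ∀ j : ℕ, j ≤ r → ∀ v, (N ^ j) v = 0 → ∃ u, N u = v := by
    intro j
    induction j with
    | zero => intro _ v hv; exact ⟨0, by simpa using hv.symm⟩
    | succ j ih =>
      intro hj v hv
      rw [pow_succ', Module.End.mul_apply] at hv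
      obtain ⟨u, hu⟩ := hfix _ hv
      obtain ⟨w, hw⟩ := ih (by omega) (v - (N ^ (r - j)) u) (by
        rw [map_sub, ← Module.End.mul_apply, ← pow_add, Nat.add_sub_cancel' (by omega), hu, sub_self])
      refine ⟨w + (N ^ (r - j - 1)) u, ?_⟩
      rw [map_add, hw, ← Module.End.mul_apply, ← pow_succ', show r - j - 1 + 1 = r - j by omega, sub_add_cancel]
  obtain ⟨W, hW⟩ := Submodule.exists_isCompl (LinearMap.range N)
  set T : (Fin p → W) →ₗ[k] V := ∑ i : Fin p, ((s ^ (i : ℕ)).comp W.subtype).comp (LinearMap.proj i) with hT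
  set T' : (Fin p → W) →ₗ[k] V := ∑ i : Fin p, ((N ^ (i : ℕ)).comp W.subtype).comp (LinearMap.proj i) with hT'
  have happ : ∀ w, T w = ∑ i : Fin p, (s ^ (i : ℕ)) (w i : V) := fun w => by simp [hT]
  have happ' : ∀ w, T' w = ∑ i : Fin p, (N ^ (i : ℕ)) (w i : V) := fun w => by simp [hT']
  have hinj' : Function.Injective T' := by
    rw [← LinearMap.ker_eq_bot, LinearMap.ker_eq_bot']
    intro w hw
    suffices h : ∀ n, ∀ i : Fin p, (i : ℕ) < n → w i = 0 from funext fun i => h p i i.2
    intro n
    induction n with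
    | zero => intro i hi; omega
    | succ n ih =>
      intro i hi
      rcases Nat.lt_succ_iff_lt_or_eq.1 hi with h | h
      · exact ih i h
      have hir : n ≤ r := by have := i.2; omega
      have h0 := congrArg (N ^ (r - n)) hw
      rw [happ', map_sum, map_zero, Finset.sum_eq_single i] at h0
      · rw [← Module.End.mul_apply, ← pow_add, h, Nat.sub_add_cancel hir] at h0
        obtain ⟨u, hu⟩ := hker r le_rfl _ h0
        exact Subtype.ext (Submodule.disjoint_def.1 hW.disjoint _ ⟨u, hu⟩ (w i).2)
      · intro l _ hli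
        rcases lt_or_gt_of_ne (fun e => hli (Fin.ext e)) with hl | hl
        · rw [ih l (by omega)]; simp
        · rw [← Module.End.mul_apply, ← pow_add]
          obtain ⟨d, hd⟩ : ∃ d, r - n + (l : ℕ) = p + d := ⟨r - n + l - p, by omega⟩
          rw [hd, pow_add, hNp, zero_mul, LinearMap.zero_apply]
      · simp
  have hsur' : Function.Surjective T' := by
    suffices h : ∀ n : ℕ, n ≤ p → ∀ v : V, ∃ w u, v = T' w + (N ^ n) u by
      intro v
      obtain ⟨w, u, hv⟩ := h p le_rfl v
      exact ⟨w, by rw [hv, hNp, LinearMap.zero_apply, add_zero]⟩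
    intro n
    induction n with
    | zero => intro _ v; exact ⟨0, v, by simp⟩
    | succ n ih =>
      intro hn v
      obtain ⟨w, u, hv⟩ := ih (by omega) v
      obtain ⟨a, ha, b, hb, hab⟩ := Submodule.mem_sup.1 (hW.sup_eq_top.symm ▸ Submodule.mem_top : u ∈ LinearMap.range N ⊔ W)
      obtain ⟨a, rfl⟩ := ha
      refine ⟨w + Pi.single (⟨n, by omega⟩ : Fin p) ⟨b, hb⟩, a, ?_⟩
      rw [map_add, hv, happ' (Pi.single _ _), Finset.sum_eq_single (⟨n, by omega⟩ : Fin p) (fun l _ hl => by simp [hl]) (by simp),
        Pi.single_eq_same, ← hab, map_add, pow_succ, Module.End.mul_apply]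
      abel
  have hdim : Module.finrank k (Fin p → W) = Module.finrank k V := (LinearEquiv.ofBijective T' ⟨hinj', hsur'⟩).finrank_eq
  have hsur : Function.Surjective T := by
    intro v
    obtain ⟨w, rfl⟩ := hsur' v
    rw [happ']
    suffices h : ∀ n : ℕ, n < p → ∀ x : W, (N ^ n) (x : V) ∈ LinearMap.range T from
      Submodule.sum_mem _ (fun (i : Fin p) _ => h (i : ℕ) i.2 (w i))
    intro n
    induction n using Nat.strong_induction_on with
    | _ n ih =>
      intro hn x
      have h1 : (s ^ n) (x : V) ∈ LinearMap.range T :=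
        ⟨Pi.single (⟨n, hn⟩ : Fin p) x, by rw [happ, Finset.sum_eq_single (⟨n, hn⟩ : Fin p) (fun l _ hl => by simp [hl]) (by simp)]; simp⟩
      have hexp : s ^ n = ∑ m ∈ Finset.range (n + 1), n.choose m • N ^ m := by
        rw [show s = N + 1 by rw [hN, sub_add_cancel], (Commute.one_right N).add_pow]
        exact Finset.sum_congr rfl fun m _ => by rw [one_pow, mul_one, nsmul_eq_mul, Nat.cast_comm]
      rw [hexp, Finset.sum_range_succ, Nat.choose_self, one_smul, LinearMap.add_apply] at h1
      refine (Submodule.add_mem_iff_right _ ?_).1 h1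
      rw [LinearMap.sum_apply]
      refine Submodule.sum_mem _ fun m hm => ?_
      have hmn := Finset.mem_range.1 hm
      exact Submodule.smul_of_tower_mem _ (n.choose m) (ih m hmn (by omega) x)
  set E : (Fin p → W) ≃ₗ[k] V := LinearEquiv.ofBijective T ⟨(LinearMap.injective_iff_surjective_of_finrank_eq_finrank hdim).2 hsur, hsur⟩ with hE
  set i0 : Fin p := ⟨0, hp.pos⟩
  set j : Module.End k V := (W.subtype.comp (LinearMap.proj i0)).comp E.symm.toLinearMap with hj
  have hsp : ∀ m n : ℕ, m + n = p → s ^ m * s ^ n = 1 := fun m n h => by rw [← pow_add, h, hs]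
  have hjs : ∀ (n : ℕ) (hn : n < p) (x : W), j ((s ^ n) (x : V)) = if n = 0 then (x : V) else 0 := by
    intro n hn x
    have e : (s ^ n) (x : V) = E (Pi.single (⟨n, hn⟩ : Fin p) x) := by
      show _ = T _
      rw [happ, Finset.sum_eq_single (⟨n, hn⟩ : Fin p) (fun l _ hl => by simp [hl]) (by simp)]
      simp
    simp only [hj, e, LinearMap.comp_apply, LinearEquiv.coe_coe, LinearEquiv.symm_apply_apply, LinearMap.proj_apply,
      Submodule.subtype_apply]
    split_ifs with h0
    · subst h0; rw [Pi.single_eq_same]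
    · rw [Pi.single_eq_of_ne (fun h => h0 (congrArg Fin.val h).symm)]; rfl
  have hext : ∀ f g : Module.End k V, (∀ n, n < p → ∀ x : W, f ((s ^ n) (x : V)) = g ((s ^ n) (x : V))) → f = g := by
    intro f g h
    refine LinearMap.ext fun v => ?_
    obtain ⟨w, rfl⟩ := hsur v
    rw [happ, map_sum, map_sum]
    exact Finset.sum_congr rfl fun i _ => h i i.2 (w i)
  have hconj : ∀ i, i < p → ∀ n, n < p → ∀ x : W,
      (s ^ i * j * s ^ (p - i)) ((s ^ n) (x : V)) = if n = i then (s ^ i) (x : V) else 0 := by
    intro i hi n hn x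
    simp only [Module.End.mul_apply]
    rw [← Module.End.mul_apply (s ^ (p - i)), ← pow_add]
    by_cases hni : n = i
    · subst hni
      rw [if_pos rfl, Nat.sub_add_cancel hi.le, hs, Module.End.one_apply]
      have := hjs 0 hp.pos x
      simp only [pow_zero, Module.End.one_apply, if_true] at this
      rw [this]
    · rw [if_neg hni]
      rcases lt_or_gt_of_ne hni with h | h
      · rw [hjs _ (by omega) x, if_neg (by omega), map_zero]
      · rw [show p - i + n = p + (n - i) by omega, pow_add, hs, one_mul, hjs _ (by omega) x, if_neg (by omega), map_zero]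
  refine ⟨j, hext _ _ fun n hn x => ?_, fun i hi h0 => hext _ _ fun n hn x => ?_, fun i hi h0 => hext _ _ fun n hn x => ?_,
    hext _ _ fun n hn x => ?_⟩
  · rw [Module.End.mul_apply, hjs n hn x]
    split_ifs with h
    · have := hjs 0 hp.pos x
      simpa using this
    · rw [map_zero]
  · rw [Module.End.mul_apply, hconj i hi n hn x, LinearMap.zero_apply]
    split_ifs
    · rw [hjs i hi x, if_neg h0]
    · rw [map_zero]
  · rw [Module.End.mul_apply, hjs n hn x, LinearMap.zero_apply]
    split_ifs
    · have := hconj i hi 0 hp.pos x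
      rw [pow_zero, Module.End.one_apply, if_neg (Ne.symm h0)] at this
      exact this
    · rw [map_zero]
  · rw [LinearMap.sum_apply, Finset.sum_congr rfl fun i hi => hconj i (Finset.mem_range.1 hi) n hn x,
      Module.End.one_apply, Finset.sum_ite_eq, if_pos (Finset.mem_range.2 hn)]

/-- The same statement for an automorphism of a finite-dimensional algebra with local fixed algebra. -/
theorem exists_orth_translates [IsAlgClosed k] {B : Type*} [Ring B] [Algebra k B] [FiniteDimensional k B]
    [Nontrivial B] (σ : B ≃ₐ[k] B) (hσ : σ ^ p = 1) (hloc : ∀ x, σ x = x → IsNilpotent x ∨ IsUnit x)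
    (c : B) (hc : ∑ i ∈ Finset.range p, (σ ^ i) c = 1) :
    ∃ j : B, j * j = j ∧ (∀ i < p, i ≠ 0 → j * (σ ^ i) j = 0 ∧ (σ ^ i) j * j = 0) ∧
      ∑ i ∈ Finset.range p, (σ ^ i) j = 1 := by
  classical
  have hp := (Fact.out : p.Prime)
  haveI : IsArtinianRing B := IsArtinianRing.of_finite k B
  obtain ⟨N, hN⟩ := IsSemiprimaryRing.isNilpotent (R := B)
  set J : Ideal B := Ring.jacobson B with hJ
  set π : B →ₐ[k] B ⧸ J := Ideal.Quotient.mkₐ k J with hπ
  have hπs : Function.Surjective π := Ideal.Quotient.mkₐ_surjective k J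
  have hπ0 : ∀ {x}, π x = 0 ↔ x ∈ J := Ideal.Quotient.eq_zero_iff_mem
  have hnil : ∀ x ∈ J, IsNilpotent x := fun x hx => ⟨N, by
    have h := Ideal.pow_mem_pow hx N
    rw [hN] at h
    exact h⟩
  have hfixS : ∀ x : B, (σ ^ p) x = x := fun x => by rw [hσ]; rfl
  have hsucc : ∀ (i : ℕ) (x : B), σ ((σ ^ i) x) = (σ ^ (i + 1)) x := fun i x => by rw [pow_succ']; rfl
  have htr : ∀ x : B, σ (∑ i ∈ Finset.range p, (σ ^ i) x) = ∑ i ∈ Finset.range p, (σ ^ i) x := fun x => by
    rw [map_sum, Finset.sum_congr rfl fun i _ => hsucc i x]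
    exact sum_range_rotate hp.pos (fun i => (σ ^ i) x) (by simp [hfixS])
  -- the reduced algebra
  have hJσ : ∀ i : ℕ, ∀ x ∈ J, (σ ^ i) x ∈ J := fun i x hx => by
    haveI : RingHomSurjective ((σ ^ i : B ≃ₐ[k] B) : B →+* B) := ⟨(σ ^ i).surjective⟩
    exact Ring.le_comap_jacobson ((σ ^ i : B ≃ₐ[k] B) : B →+* B) hx
  have hπσ : ∀ (i : ℕ) {x y : B}, π x = π y → π ((σ ^ i) x) = π ((σ ^ i) y) := fun i x y h => by
    rw [← sub_eq_zero, ← map_sub, hπ0] at h
    rw [← sub_eq_zero, ← map_sub, hπ0, ← map_sub]
    exact hJσ i _ h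
  suffices hbar : ∃ a : B, π (a * a) = π a ∧ (∀ i < p, i ≠ 0 → π (a * (σ ^ i) a) = 0 ∧ π ((σ ^ i) a * a) = 0) ∧
      π (∑ i ∈ Finset.range p, (σ ^ i) a) = 1 by
    obtain ⟨a, ha, horth, hsum⟩ := hbar
    obtain ⟨j₀, hj₀, hj₀a⟩ := exists_isIdempotentElem_eq_of_ker_isNilpotent (π : B →+* B ⧸ J)
      (fun x hx => hnil x (hπ0.1 hx)) (π a) ⟨a, rfl⟩ ((map_mul π a a).symm.trans ha)
    replace hj₀a : π j₀ = π a := hj₀a
    set x := fun i => (σ ^ i) j₀ with hx
    have hxi : ∀ i, x i * x i = x i := fun i => by rw [hx]; simp only; rw [← map_mul, hj₀.eq]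
    have hxp : ∀ i, x (p + i) = x i := fun i => by
      simp only [hx, pow_add, hσ, one_mul]
    have hxorth : ∀ i l, i < p → l < p → i ≠ l → x i * x l ∈ J := by
      intro i l hi hl hne
      rcases lt_or_gt_of_ne hne with h | h
      · have e : x i * x l = (σ ^ i) (j₀ * (σ ^ (l - i)) j₀) := by
          rw [map_mul, ← AlgEquiv.mul_apply, ← pow_add, Nat.add_sub_cancel' h.le]
        rw [e, ← hπ0]
        have h1 : π (j₀ * (σ ^ (l - i)) j₀) = π 0 := by
          rw [map_mul, hπσ _ hj₀a, hj₀a, ← map_mul, (horth (l - i) (by omega) (by omega)).1, map_zero]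
        rw [hπσ i h1, map_zero, map_zero]
      · have e : x i * x l = (σ ^ l) ((σ ^ (i - l)) j₀ * j₀) := by
          rw [map_mul, ← AlgEquiv.mul_apply, ← pow_add, Nat.add_sub_cancel' h.le]
        rw [e, ← hπ0]
        have h1 : π ((σ ^ (i - l)) j₀ * j₀) = π 0 := by
          rw [map_mul, hπσ _ hj₀a, hj₀a, ← map_mul, (horth (i - l) (by omega) (by omega)).2, map_zero]
        rw [hπσ l h1, map_zero, map_zero]
    -- uniqueness of the components
    have huniq : ∀ d : ℕ → B, (∀ i < p, d i * x i = d i) → ∑ i ∈ Finset.range p, d i = 0 → ∀ i < p, d i = 0 := by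
      intro d hd hsum0
      suffices h : ∀ n, ∀ i < p, d i ∈ J ^ n from fun i hi => by
        have := h N i hi
        rwa [hN] at this
      intro n
      induction n with
      | zero => intro i _; rw [Submodule.pow_zero, Ideal.one_eq_top]; exact Submodule.mem_top
      | succ n ih =>
        intro l hl
        have h0 := congrArg (· * x l) hsum0
        simp only [Finset.sum_mul, zero_mul] at h0
        rw [← Finset.add_sum_erase _ _ (Finset.mem_range.2 hl), hd l hl] at h0
        rw [eq_neg_of_add_eq_zero_left h0]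
        refine Submodule.neg_mem _ (Submodule.sum_mem _ fun i hi => ?_)
        obtain ⟨hne, hip⟩ := Finset.mem_erase.1 hi
        rw [Finset.mem_range] at hip
        conv => arg 2; rw [← hd i hip, mul_assoc]
        rw [Submodule.pow_succ]
        exact Ideal.mul_mem_mul (ih i hip) (hxorth i l hip hl hne)
    set S := ∑ i ∈ Finset.range p, x i with hS
    have hSu : IsUnit S := by
      have h1 : π S = 1 := by
        rw [← hsum, hS, map_sum, map_sum]
        exact Finset.sum_congr rfl fun i _ => hπσ i hj₀a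
      have h2 : IsNilpotent (1 - S) := hnil _ (hπ0.1 (by rw [map_sub, map_one, h1, sub_self]))
      simpa using h2.isUnit_one_sub
    obtain ⟨u, hu⟩ := hSu
    have hSfix : ∀ i, (σ ^ i) S = S := fun i => by
      induction i with
      | zero => rfl
      | succ i ih => rw [← hsucc, ih]; exact htr j₀
    have hσu : ∀ i, (σ ^ i) (u⁻¹ : Bˣ) = ((u⁻¹ : Bˣ) : B) := fun i => by
      rw [← mul_one ((σ ^ i) ((u⁻¹ : Bˣ) : B)), ← u.mul_inv, ← mul_assoc]
      conv_lhs => arg 1; arg 2; rw [hu, ← hSfix i]
      rw [← map_mul, ← hu, Units.inv_mul, map_one, one_mul]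
    set w := ((u⁻¹ : Bˣ) : B) with hw
    set y := fun i => w * x i with hy
    have hyx : ∀ i, y i * x i = y i := fun i => by rw [hy]; simp only; rw [mul_assoc, hxi]
    have hysum : ∑ i ∈ Finset.range p, y i = 1 := by
      simp only [hy, ← Finset.mul_sum]
      rw [← hS, hw, ← hu, Units.inv_mul]
    have hyy : ∀ l < p, ∀ i < p, y l * y i = if i = l then y l else 0 := by
      intro l hl i hi
      refine sub_eq_zero.1 (huniq (fun i => y l * y i - if i = l then y l else 0) (fun i _ => ?_) ?_ i hi)
      · rw [sub_mul, mul_assoc, hyx]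
        split_ifs with h
        · subst h; rw [hyx]
        · rw [zero_mul]
      · rw [Finset.sum_sub_distrib, ← Finset.mul_sum, hysum, mul_one, Finset.sum_ite_eq', if_pos (Finset.mem_range.2 hl),
          sub_self]
    have hσy : ∀ i, (σ ^ i) (y 0) = y i := fun i => by
      simp only [hy]
      rw [map_mul, hσu]
      simp only [hx, pow_zero, AlgEquiv.one_apply]
    refine ⟨y 0, by rw [hyy 0 hp.pos 0 hp.pos, if_pos rfl], fun i hi h0 => ?_, ?_⟩
    · rw [hσy]
      exact ⟨by rw [hyy 0 hp.pos i hi, if_neg h0], by rw [hyy i hi 0 hp.pos, if_neg (Ne.symm h0)]⟩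
    · rw [Finset.sum_congr rfl fun i _ => hσy i, hysum]
  -- the semisimple case
  obtain ⟨n, d, hd, ⟨φ⟩⟩ := IsSemisimpleRing.exists_algEquiv_pi_matrix_of_isAlgClosed k (B ⧸ J)
  set ψ : B →ₐ[k] ((l : Fin n) → Matrix (Fin (d l)) (Fin (d l)) k) := φ.toAlgHom.comp π with hψ
  have hψs : Function.Surjective ψ := φ.surjective.comp hπs
  have hψπ : ∀ {x y : B}, ψ x = ψ y ↔ π x = π y := φ.injective.eq_iff
  have hlift : ∀ z : B, π (σ z) = π z → ∃ f : B, σ f = f ∧ π f = π z := by
    intro z hz
    have hz' : ∀ i : ℕ, π ((σ ^ i) z) = π z := fun i => by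
      induction i with
      | zero => rfl
      | succ i ih =>
        rw [← hsucc]
        have h := hπσ 1 ih
        rw [pow_one] at h
        rw [h, hz]
    refine ⟨∑ i ∈ Finset.range p, (σ ^ i) (c * z), htr _, ?_⟩
    rw [map_sum, Finset.sum_congr rfl (g := fun i => π ((σ ^ i) c) * π z) fun i _ => by rw [map_mul, map_mul, hz'],
      ← Finset.sum_mul, ← map_sum, hc, map_one, one_mul]
  have hfixidem : ∀ z : B, π (σ z) = π z → π (z * z) = π z → π z = 0 ∨ π z = 1 := by
    intro z hz hzz
    obtain ⟨f, hf, hfz⟩ := hlift z hz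
    rw [map_mul, ← hfz] at hzz
    rcases hloc f hf with h | h
    · exact Or.inl (hfz ▸ (IsIdempotentElem.eq_zero_of_isNilpotent hzz (h.map π)))
    · exact Or.inr (hfz ▸ ((h.map π).mul_eq_left.1 hzz))
  haveI : Nonempty (Fin n) := by
    by_contra hne
    rw [not_nonempty_iff] at hne
    have h1 : ψ 1 = ψ 0 := Subsingleton.elim _ _
    rw [hψπ, map_zero, map_one] at h1
    have h2 := hnil 1 (hπ0.1 (by rw [map_one, h1]))
    exact not_isUnit_zero (M₀ := B) (by
      obtain ⟨m, hm⟩ := h2
      rw [one_pow] at hm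
      rw [← hm]
      exact isUnit_one)
  obtain ⟨l₀⟩ := (inferInstance : Nonempty (Fin n))
  obtain ⟨z, hz⟩ := hψs (Pi.single l₀ 1)
  have hzz : π (z * z) = π z := hψπ.1 (by rw [map_mul, hz, ← Pi.single_mul, one_mul])
  by_cases hz1 : π (σ z) = π z
  · -- one factor, stable under the automorphism
    have hzone : π z = π 1 := by
      rcases hfixidem z hz1 hzz with h | h
      · exfalso
        rw [← map_zero π, ← hψπ, hz, map_zero, Pi.single_eq_zero_iff] at h
        haveI := hd l₀
        exact one_ne_zero h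
      · rw [h, map_one]
    have hone : (Pi.single l₀ 1 : (l : Fin n) → Matrix (Fin (d l)) (Fin (d l)) k) = 1 := by
      rw [← hz, hψπ.2 hzone, map_one]
    have hall : ∀ l, l = l₀ := fun l => by
      by_contra h
      have h2 := congrFun hone l
      rw [Pi.single_eq_of_ne h] at h2
      haveI := hd l
      exact one_ne_zero h2.symm
    let Ev : B →ₐ[k] Module.End k (Fin (d l₀) → k) :=
      (Matrix.toLinAlgEquiv' (n := Fin (d l₀))).toAlgHom.comp ((Pi.evalAlgHom k (fun l => Matrix (Fin (d l)) (Fin (d l)) k) l₀).comp ψ)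
    have hEvs : Function.Surjective Ev := fun T => by
      obtain ⟨b, hb⟩ := hψs (Pi.single l₀ ((Matrix.toLinAlgEquiv' (n := Fin (d l₀))).symm T))
      exact ⟨b, by simp [Ev, hb]⟩
    have hEv : ∀ {x y : B}, Ev x = Ev y ↔ π x = π y := by
      intro x y
      refine ⟨fun h => hψπ.1 (funext fun l => ?_), fun h => by simp [Ev, hψπ.2 h]⟩
      obtain rfl := hall l
      exact (Matrix.toLinAlgEquiv' (n := Fin (d l))).injective (by simpa [Ev] using h)
    choose sec hsec using hEvs
    have hsame : ∀ {x y : B}, Ev x = Ev y → Ev (σ x) = Ev (σ y) := fun {x y} h => hEv.2 (by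
      have := hπσ 1 (hEv.1 h)
      simpa using this)
    let g : Module.End k (Fin (d l₀) → k) →ₐ[k] Module.End k (Fin (d l₀) → k) :=
      { toFun := fun T => Ev (σ (sec T))
        map_one' := (hsame (x := sec 1) (y := 1) (by rw [hsec, map_one])).trans (by rw [map_one, map_one])
        map_mul' := fun S T => (hsame (x := sec (S * T)) (y := sec S * sec T) (by rw [map_mul, hsec, hsec, hsec])).trans
          (by rw [map_mul, map_mul])
        map_zero' := (hsame (x := sec 0) (y := 0) (by rw [hsec, map_zero])).trans (by rw [map_zero, map_zero])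
        map_add' := fun S T => (hsame (x := sec (S + T)) (y := sec S + sec T) (by rw [map_add, hsec, hsec, hsec])).trans
          (by rw [map_add, map_add])
        commutes' := fun a => (hsame (x := sec (algebraMap k _ a)) (y := algebraMap k B a)
          (by rw [hsec, AlgHom.commutes])).trans (by rw [AlgEquiv.commutes, AlgHom.commutes]) }
    have hg : ∀ x : B, Ev (σ x) = g (Ev x) := fun x => by
      show Ev (σ x) = Ev (σ (sec (Ev x)))
      rw [hEv]
      simpa using hπσ 1 (hEv.1 (hsec (Ev x)).symm)
    have hgpow : ∀ (i : ℕ) (x : B), Ev ((σ ^ i) x) = (g : Module.End k (Fin (d l₀) → k) → _)^[i] (Ev x) := by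
      intro i x
      induction i with
      | zero => rfl
      | succ i ih => rw [← hsucc, hg, ih, Function.iterate_succ_apply']
    have hgp : ∀ T, (g : Module.End k (Fin (d l₀) → k) → _)^[p] T = T := fun T => by
      rw [← hsec T, ← hgpow, hfixS]
    have hgbij : Function.Bijective g := by
      obtain ⟨r, hr⟩ : ∃ r, p = r + 1 := ⟨p - 1, by have := hp.pos; omega⟩
      refine ⟨fun S T h => ?_, fun T => ⟨(g : Module.End k (Fin (d l₀) → k) → _)^[r] T, ?_⟩⟩
      · rw [← hgp S, ← hgp T, hr, Function.iterate_succ_apply, Function.iterate_succ_apply, h]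
      · rw [← Function.iterate_succ_apply' g, Nat.succ_eq_add_one, ← hr, hgp]
    obtain ⟨t, ht⟩ := (AlgEquiv.ofBijective g hgbij).eq_linearEquivConjAlgEquiv
    have htS : ∀ S, g S * (t : Module.End k (Fin (d l₀) → k)) = (t : Module.End k (Fin (d l₀) → k)) * S := fun S => by
      rw [show g S = AlgEquiv.ofBijective g hgbij S from rfl, ht]
      ext v
      simp [LinearEquiv.conjAlgEquiv_apply]
    set tE : Module.End k (Fin (d l₀) → k) := (t : Module.End k (Fin (d l₀) → k)) with htE
    have hit : ∀ (i : ℕ) S, (g : Module.End k (Fin (d l₀) → k) → _)^[i] S * tE ^ i = tE ^ i * S := fun i S => by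
      induction i generalizing S with
      | zero => simp
      | succ i ih => rw [Function.iterate_succ_apply, pow_succ, ← mul_assoc, ih, mul_assoc, htS, ← mul_assoc]
    have hcent : tE ^ p ∈ Subalgebra.center k (Module.End k (Fin (d l₀) → k)) := Subalgebra.mem_center_iff.2 fun S => by
      conv_lhs => rw [← hgp S]
      exact hit p S
    rw [Algebra.IsCentral.center_eq_bot, Algebra.mem_bot] at hcent
    obtain ⟨μ, hμ⟩ := hcent
    obtain ⟨ν, hν⟩ := IsAlgClosed.exists_pow_nat_eq μ hp.pos
    haveI := hd l₀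
    have hνne : ν ≠ 0 := by
      intro h0
      have hμ0 : μ = 0 := by rw [← hν, h0, zero_pow hp.ne_zero]
      rw [hμ0, map_zero] at hμ
      have hu : IsUnit tE := ((Module.End.isUnit_iff _).2 t.bijective)
      exact not_isUnit_zero (hμ ▸ hu.pow p)
    set s : Module.End k (Fin (d l₀) → k) := ν⁻¹ • tE with hs
    have hsp : s ^ p = 1 := by
      rw [hs, smul_pow, ← hμ, Algebra.algebraMap_eq_smul_one, smul_smul, inv_pow, hν, inv_mul_cancel₀, one_smul]
      rw [← hν]
      exact pow_ne_zero _ hνne
    have hconj : ∀ i, i < p → ∀ S, (g : Module.End k (Fin (d l₀) → k) → _)^[i] S = s ^ i * S * s ^ (p - i) := fun i hi S => by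
      have h1 : (g : Module.End k (Fin (d l₀) → k) → _)^[i] S * s ^ i = s ^ i * S := by
        simp only [hs, smul_pow, mul_smul_comm, smul_mul_assoc, hit]
      rw [← h1, mul_assoc, ← pow_add, Nat.add_sub_cancel' hi.le, hsp, mul_one]
    obtain ⟨q, hq, hq1, hq2, hq3⟩ := exists_free_projection s hsp (Ev c) (by
      rw [← map_one Ev, ← hc, map_sum]
      exact Finset.sum_congr rfl fun i hi => by rw [hgpow, hconj i (Finset.mem_range.1 hi)])
    refine ⟨sec q, hEv.1 (by rw [map_mul, hsec, hq]), fun i hi h0 => ⟨?_, ?_⟩, ?_⟩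
    · rw [← map_zero π, ← hEv, map_mul, hgpow, hconj i hi, hsec, map_zero, hq1 i hi h0]
    · rw [← map_zero π, ← hEv, map_mul, hgpow, hconj i hi, hsec, map_zero, hq2 i hi h0]
    · rw [← map_one π, ← hEv, map_sum, map_one, ← hq3]
      exact Finset.sum_congr rfl fun i hi => by rw [hgpow, hconj i (Finset.mem_range.1 hi), hsec]
  · -- a free orbit of factors
    have hcen : ∀ x, π (z * x) = π (x * z) := fun x => hψπ.1 (by
      rw [map_mul, map_mul, hz]
      funext l
      by_cases h : l = l₀
      · subst h; simp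
      · simp [h])
    have hscal : ∀ w : B, π (w * w) = π w → (∀ x, π (w * x) = π (x * w)) → π (z * w) = 0 ∨ π (z * w) = π z := by
      intro w hww hw
      haveI := hd l₀
      have hmem : ψ w l₀ ∈ Subalgebra.center k (Matrix (Fin (d l₀)) (Fin (d l₀)) k) := Subalgebra.mem_center_iff.2 fun Y => by
        obtain ⟨x, hx⟩ := hψs (Pi.single l₀ Y)
        have := congrFun (hψπ.2 (hw x)) l₀
        rw [map_mul, map_mul, hx, Pi.mul_apply, Pi.mul_apply, Pi.single_eq_same] at this
        exact this.symm
      rw [Algebra.IsCentral.center_eq_bot, Algebra.mem_bot] at hmem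
      obtain ⟨a, ha⟩ := hmem
      have haa : a * a = a := by
        apply (algebraMap k (Matrix (Fin (d l₀)) (Fin (d l₀)) k)).injective
        rw [map_mul, ha]
        exact (congrFun (map_mul ψ w w) l₀).symm.trans (congrFun (hψπ.2 hww) l₀)
      rcases IsIdempotentElem.iff_eq_zero_or_one.1 haa with h | h <;> subst h
      · refine Or.inl ?_
        rw [← map_zero π, ← hψπ, map_mul, hz, map_zero]
        funext l
        by_cases h : l = l₀
        · subst h; simp [← ha]
        · simp [h]
      · refine Or.inr ?_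
        rw [← hψπ, map_mul, hz]
        funext l
        by_cases h : l = l₀
        · subst h; simp [← ha]
        · simp [h]
    have hiw : ∀ i, π ((σ ^ i) z * (σ ^ i) z) = π ((σ ^ i) z) := fun i => by rw [← map_mul]; exact hπσ i hzz
    have hic : ∀ i x, π ((σ ^ i) z * x) = π (x * (σ ^ i) z) := fun i x => by
      have := hπσ i (hcen ((σ ^ i).symm x))
      rwa [map_mul (σ ^ i), map_mul (σ ^ i), AlgEquiv.apply_symm_apply] at this
    have hstab : ∀ i, i < p → i ≠ 0 → π ((σ ^ i) z) ≠ π z := by
      intro i hi h0 h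
      have hm : ∀ m : ℕ, π ((σ ^ (i * m)) z) = π z := fun m => by
        induction m with
        | zero => rfl
        | succ m ih => rw [Nat.mul_succ, pow_add, AlgEquiv.mul_apply, hπσ _ h, ih]
      have hcop : Nat.Coprime i p := (hp.coprime_iff_not_dvd.2 fun hd' => by
        have := Nat.le_of_dvd (Nat.pos_of_ne_zero h0) hd'; omega).symm
      obtain ⟨m, -, hmeq⟩ := Nat.exists_mul_mod_eq_one_of_coprime hcop hp.one_lt
      apply hz1
      have := hm m
      rw [← Nat.mod_add_div (i * m) p, hmeq, pow_add, pow_mul, hσ, one_pow, mul_one, pow_one] at this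
      exact this
    have horth : ∀ i, i < p → i ≠ 0 → π (z * (σ ^ i) z) = 0 := by
      intro i hi h0
      rcases hscal _ (hiw i) (hic i) with h | h
      · exact h
      exfalso
      set i' := p - i
      have hii : ∀ x, (σ ^ i) ((σ ^ i') x) = x := fun x => by
        rw [← AlgEquiv.mul_apply, ← pow_add, Nat.add_sub_cancel' hi.le, hfixS]
      rcases hscal _ (hiw i') (hic i') with h' | h'
      · have h2 := hπσ i (h'.trans (map_zero π).symm)
        rw [map_mul, map_mul, hii, map_zero, map_zero, ← map_mul, hic i z, map_mul] at h2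
        have h3 : π z = 0 := by rw [← h, map_mul, h2]
        rw [← map_zero π, ← hψπ, hz, map_zero, Pi.single_eq_zero_iff] at h3
        haveI := hd l₀
        exact one_ne_zero h3
      · have h2 := hπσ i h'
        rw [map_mul, hii, map_mul, ← map_mul, hic i z, h] at h2
        exact hstab i hi h0 h2.symm
    refine ⟨z, hzz, fun i hi h0 => ⟨horth i hi h0, by rw [hic i z]; exact horth i hi h0⟩, ?_⟩
    refine (hfixidem _ (by rw [htr]) ?_).resolve_left fun h => ?_
    · simp only [map_mul, map_sum, Finset.sum_mul_sum]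
      refine Finset.sum_congr rfl fun i hi => ?_
      rw [Finset.sum_eq_single i]
      · rw [← map_mul, hiw]
      · intro l hl hli
        rw [Finset.mem_range] at hi hl
        rcases lt_or_gt_of_ne hli with h | h
        · have h2 := hπσ l ((horth (i - l) (by omega) (by omega)).trans (map_zero π).symm)
          rw [map_mul (σ ^ l), ← AlgEquiv.mul_apply, ← pow_add, Nat.add_sub_cancel' h.le, map_zero, map_zero] at h2
          rw [← map_mul, hic i]
          exact h2
        · have h2 := hπσ i ((horth (l - i) (by omega) (by omega)).trans (map_zero π).symm)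
          rw [map_mul (σ ^ i), ← AlgEquiv.mul_apply, ← pow_add, Nat.add_sub_cancel' h.le, map_zero, map_zero] at h2
          rw [← map_mul]
          exact h2
      · exact fun h => absurd hi h
    · have h2 : ∑ i ∈ Finset.range p, π z * π ((σ ^ i) z) = 0 := by
        rw [← Finset.mul_sum, ← map_sum, h, mul_zero]
      rw [Finset.sum_eq_single_of_mem 0 (Finset.mem_range.2 hp.pos)
        (fun i hi h0 => by rw [← map_mul]; exact horth i (Finset.mem_range.1 hi) h0)] at h2
      rw [pow_zero, AlgEquiv.one_apply, ← map_mul, hzz, ← map_zero π, ← hψπ, hz, map_zero, Pi.single_eq_zero_iff] at h2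
      haveI := hd l₀
      exact one_ne_zero h2

end CfsgLib.Star
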