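import Cfsg.Agent.Blocks.Star.Split

/-!
# A primitive idempotent killed by the Brauer map splits into conjugate idempotents
-/

set_option autoImplicit false
set_option linter.unusedSectionVars false
set_option linter.style.haveILetI false

namespace CfsgLib.Star

open CfsgLib.PairAlg CfsgLib.NilBlock

variable {k : Type*} [Field k] {G : Type*} [Group G] [Fintype G] {p : ℕ} [Fact p.Prime] [CharP k p]
  {Q : Subgroup G} {y : G} {r : MonoidAlgebra k G}

/-- The elements fixed by a subgroup, as an algebra. -/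
def fixAlg (k : Type*) [Field k] {G : Type*} [Group G] [Fintype G] (H : Subgroup G) :
    Subalgebra k (MonoidAlgebra k G) where
  carrier := {a | Fix H a}
  mul_mem' := Fix.mul
  one_mem' := fix_one H
  add_mem' := Fix.add
  zero_mem' := fix_zero H
  algebraMap_mem' c := by
    show Fix H _
    rw [Algebra.algebraMap_eq_smul_one]
    exact (fix_one H).smul c

theorem mem_fixAlg {H : Subgroup G} {a : MonoidAlgebra k G} : a ∈ fixAlg k H ↔ Fix H a := Iff.rfl

theorem fix_cj_normal {H : Subgroup G} {g : G} (hg : g ∈ Subgroup.normalizer (H : Set G)) {a : MonoidAlgebra k G}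
    (ha : Fix H a) : Fix H (cj g a) := fun u hu => by
  have h : g⁻¹ * u * g ∈ H := (Subgroup.mem_normalizer_iff.1 hg _).2 (by simpa [mul_assoc] using hu)
  rw [cj_cj, show u * g = g * (g⁻¹ * u * g) by group, ← cj_cj, ha _ h]

theorem Prim.trace_fix (hry : cj y r = r) {T : Subgroup G} {g : G} (hTQ : T ≤ Q) (hgn : g ∈ Subgroup.normalizer (T : Set G))
    (hgp : g ^ p ∈ T) (hcov : ∀ q ∈ Q, ∃ m < p, ∃ t ∈ T, q = g ^ m * t) (hgy : Commute g y)
    {d : MonoidAlgebra k G} (hd : Fix T d) (hdy : cj y d = d) :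
    Fix Q (∑ m ∈ Finset.range p, cj (g ^ m) d) ∧ cj y (∑ m ∈ Finset.range p, cj (g ^ m) d) = ∑ m ∈ Finset.range p, cj (g ^ m) d := by
  have hp := (Fact.out : p.Prime)
  set S := ∑ m ∈ Finset.range p, cj (g ^ m) d with hS
  have h1 : cj g S = S := by
    rw [hS, map_sum, Finset.sum_congr rfl fun m _ => by rw [cj_cj, ← pow_succ']]
    exact sum_range_rotate hp.pos (fun m => cj (g ^ m) d) (by simp [hd _ hgp, cj_one_apply])
  have h2 : ∀ t ∈ T, cj t S = S := fun t ht =>
    fix_sum _ _ (fun m _ => fix_cj_normal (Subgroup.pow_mem _ hgn m) hd) t ht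
  refine ⟨fun q hq => ?_, ?_⟩
  · obtain ⟨m, -, t, ht, rfl⟩ := hcov q hq
    rw [← cj_cj, h2 t ht, cj_pow_fix h1]
  · rw [hS, map_sum]
    exact Finset.sum_congr rfl fun m _ => by rw [cj_cj, ← (hgy.pow_left m).eq, ← cj_cj, hdy]

/-- A primitive idempotent killed by the Brauer map is a sum of `p` orthogonal conjugates. -/
theorem Prim.exists_translates [IsAlgClosed k] (hQ : IsPGroup p Q) (hy : y ∈ Subgroup.centralizer (Q : Set G))
    (hyo : ¬ p ∣ orderOf y) (h : Prim Q y r) (h0 : Br Q r = 0) :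
    ∃ (T : Subgroup G) (g : G) (j : MonoidAlgebra k G), T ≤ Q ∧ g ∈ Q ∧ g ∉ T ∧ g ^ p ∈ T ∧
      g ∈ Subgroup.normalizer (T : Set G) ∧ (∀ q ∈ Q, ∃ m < p, ∃ t ∈ T, q = g ^ m * t) ∧
      Fix T j ∧ cj y j = j ∧ j * j = j ∧
      (∀ a b, a < p → b < p → a ≠ b → cj (g ^ a) j * cj (g ^ b) j = 0) ∧
      ∑ m ∈ Finset.range p, cj (g ^ m) j = r := by
  classical
  have hp := (Fact.out : p.Prime)
  obtain ⟨ι, _, T, g, d, hd, hr⟩ := exists_trace_parts hQ hy hyo h.fix h.fixy h0
  have hgy : ∀ i, Commute (g i) y := fun i => Subgroup.mem_centralizer_iff.1 hy _ (hd i).2.1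
  set S := fun i => ∑ m ∈ Finset.range p, cj (g i ^ m) (d i) with hS
  have hSfix : ∀ i, Fix Q (S i) ∧ cj y (S i) = S i := fun i => by
    obtain ⟨h1, h2, -, h4, h5, h6, h7, h8⟩ := hd i
    exact Prim.trace_fix h.fixy h1 h5 h4 h6 (hgy i) h7 h8
  have hcorner : ∀ x, r * (r * x * r) = r * x * r ∧ r * x * r * r = r * x * r := fun x =>
    ⟨by rw [← mul_assoc, ← mul_assoc, h.idem], by rw [mul_assoc, h.idem]⟩
  obtain ⟨i₀, hi₀⟩ : ∃ i, ¬ IsNilpotent (r * S i * r) := by
    by_contra hcon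
    push Not at hcon
    have key : ∀ s : Finset ι, IsNilpotent (∑ i ∈ s, r * S i * r) := by
      intro s
      induction s using Finset.induction_on with
      | empty => simp
      | @insert a s ha ih =>
        rw [Finset.sum_insert ha]
        refine h.add_nilpotent ((h.fix.mul (hSfix a).1).mul h.fix) (by rw [map_mul, map_mul, h.fixy, (hSfix a).2])
          (hcorner _).1 (hcorner _).2 (fix_sum _ _ fun i _ => (h.fix.mul (hSfix i).1).mul h.fix)
          (by rw [map_sum]; exact Finset.sum_congr rfl fun i _ => by rw [map_mul, map_mul, h.fixy, (hSfix i).2])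
          (by rw [Finset.mul_sum]; exact Finset.sum_congr rfl fun i _ => (hcorner _).1)
          (by rw [Finset.sum_mul]; exact Finset.sum_congr rfl fun i _ => (hcorner _).2) (hcon a) ih
    have e : ∑ i, r * S i * r = r := by
      rw [← Finset.sum_mul, ← Finset.mul_sum, ← hr, h.idem, h.idem]
    obtain ⟨n, hn⟩ := key Finset.univ
    rw [e] at hn
    rcases n with _ | n
    · exact h.ne (by rw [← mul_one r, ← pow_zero r, hn, mul_zero])
    · exact h.ne (by rw [← IsIdempotentElem.pow_succ_eq n h.idem, hn])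
  obtain ⟨hTQ, hgQ, hgT, hgp, hgn, hcov, hdF, hdy⟩ := hd i₀
  obtain ⟨w, hwF, hwy, hrw, hwr, hsw, -⟩ := ((h.nilpotent_or_inv ((h.fix.mul (hSfix i₀).1).mul h.fix)
    (by rw [map_mul, map_mul, h.fixy, (hSfix i₀).2]) (hcorner _).1 (hcorner _).2).resolve_left hi₀)
  set T₀ := T i₀
  set g₀ := g i₀
  set H := T₀ ⊔ Subgroup.zpowers y with hH
  have hfixH : ∀ {a : MonoidAlgebra k G}, Fix T₀ a → cj y a = a → Fix H a := fix_sup
  have hgH : g₀ ∈ Subgroup.normalizer (H : Set G) := by
    refine mem_normalizer_of_cm ?_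
    rw [hH, cm, Subgroup.map_sup, ← cm, cm_of_mem_normalizer hgn, MonoidHom.map_zpowers]
    congr 2
    simp only [MulEquiv.toMonoidHom_eq_coe, MonoidHom.coe_coe, MulAut.conj_apply]
    rw [show g₀ * y = y * g₀ from (hgy i₀).eq, mul_inv_cancel_right]
  set c := r * d i₀ * w with hc
  have hrH : Fix H r := hfixH (h.fix.mono hTQ) h.fixy
  have hcH : Fix H c := (hrH.mul (hfixH hdF hdy)).mul (hfixH (hwF.mono hTQ) hwy)
  have hgpow : ∀ m, cj (g₀ ^ m) r = r ∧ cj (g₀ ^ m) w = w := fun m =>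
    ⟨h.fix _ (Q.pow_mem hgQ m), hwF _ (Q.pow_mem hgQ m)⟩
  have htr : ∑ m ∈ Finset.range p, cj (g₀ ^ m) c = r := by
    rw [← hsw, show r * S i₀ * r * w = r * S i₀ * w by rw [mul_assoc _ r w, hrw], Finset.mul_sum, Finset.sum_mul]
    exact Finset.sum_congr rfl fun m _ => by rw [hc, map_mul, map_mul, (hgpow m).1, (hgpow m).2]
  -- the corner
  set A := fixAlg k H with hA
  set r' : A := ⟨r, hrH⟩
  have hr' : IsIdempotentElem r' := Subtype.ext h.idem
  have hmem : ∀ {x : A}, x ∈ Subsemigroup.corner r' ↔ r' * x = x ∧ x * r' = x := Subsemigroup.mem_corner_iff hr'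
  letI : Algebra k hr'.Corner := RingHom.toAlgebra'
    { toFun := fun a => ⟨a • r', hmem.2 ⟨by rw [mul_smul_comm, hr'.eq], by rw [smul_mul_assoc, hr'.eq]⟩⟩
      map_one' := Subtype.ext (one_smul k r')
      map_mul' := fun a b => Subtype.ext (show (a * b) • r' = (a • r') * (b • r') by
        rw [smul_mul_smul_comm, hr'.eq])
      map_zero' := Subtype.ext (zero_smul k r')
      map_add' := fun a b => Subtype.ext (add_smul a b r') }
    (fun a x => Subtype.ext (show (a • r') * x.1 = x.1 * (a • r') by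
      rw [smul_mul_assoc, mul_smul_comm, (hmem.1 x.2).1, (hmem.1 x.2).2]))
  let val : hr'.Corner →ₗ[k] A :=
    { toFun := fun x => x.1
      map_add' := fun _ _ => rfl
      map_smul' := fun a x => show (a • r') * x.1 = a • x.1 by rw [smul_mul_assoc, (hmem.1 x.2).1] }
  haveI : FiniteDimensional k (MonoidAlgebra k G) := inferInstance
  haveI : FiniteDimensional k A := inferInstanceAs (FiniteDimensional k A.toSubmodule)
  haveI : FiniteDimensional k hr'.Corner := FiniteDimensional.of_injective val fun a b hab => Subtype.ext hab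
  haveI : Nontrivial hr'.Corner := ⟨⟨1, 0, fun he => h.ne (congrArg (fun x => ((x.1 : A) : MonoidAlgebra k G)) he)⟩⟩
  let co : hr'.Corner → MonoidAlgebra k G := fun x => ((x.1 : A) : MonoidAlgebra k G)
  have hco : Function.Injective co := fun a b hab => Subtype.ext (Subtype.ext hab)
  have hcoL : ∀ x, r * co x = co x ∧ co x * r = co x := fun x =>
    ⟨congrArg Subtype.val (hmem.1 x.2).1, congrArg Subtype.val (hmem.1 x.2).2⟩
  have hmk : ∀ a : MonoidAlgebra k G, Fix H a → r * a = a → a * r = a → ∃ x : hr'.Corner, co x = a := fun a ha h1 h2 =>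
    ⟨⟨⟨a, ha⟩, hmem.2 ⟨Subtype.ext h1, Subtype.ext h2⟩⟩, rfl⟩
  -- the automorphism
  have hcjmem : ∀ (u : G), u ∈ Subgroup.normalizer (H : Set G) → cj u r = r → ∀ x : hr'.Corner,
      ∃ z : hr'.Corner, co z = cj u (co x) := fun u hu hur x => hmk _ (fix_cj_normal hu x.1.2)
    (by conv_lhs => rw [← hur, ← map_mul, (hcoL x).1]) (by conv_lhs => rw [← hur, ← map_mul, (hcoL x).2])
  choose f hf using fun x => hcjmem g₀ hgH (h.fix _ hgQ) x
  choose f' hf' using fun x => hcjmem g₀⁻¹ (Subgroup.inv_mem _ hgH) (h.fix _ (Q.inv_mem hgQ)) x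
  let σ : hr'.Corner ≃ₐ[k] hr'.Corner :=
    { toFun := f
      invFun := f'
      left_inv := fun x => hco (by rw [hf', hf, cj_inv_cj])
      right_inv := fun x => hco (by rw [hf, hf', cj_cj_inv])
      map_mul' := fun a b => hco (by
        rw [hf]
        show cj g₀ (co a * co b) = co (f a) * co (f b)
        rw [map_mul, hf, hf])
      map_add' := fun a b => hco (by
        rw [hf]
        show cj g₀ (co a + co b) = co (f a) + co (f b)
        rw [map_add, hf, hf])
      commutes' := fun a => hco (by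
        rw [hf]
        show cj g₀ (a • r) = a • r
        rw [cj_smul, h.fix _ hgQ]) }
  have hσpow : ∀ (m : ℕ) (x : hr'.Corner), co ((σ ^ m) x) = cj (g₀ ^ m) (co x) := by
    intro m x
    induction m with
    | zero => rw [pow_zero, pow_zero, cj_one_apply]; rfl
    | succ m ih =>
      rw [pow_succ', AlgEquiv.mul_apply, pow_succ', ← cj_cj, ← ih]
      exact hf _
  have hσ : σ ^ p = 1 := AlgEquiv.ext fun x => hco (by
    rw [hσpow]
    exact x.1.2 _ (Subgroup.mem_sup_left hgp))
  have hloc : ∀ x, σ x = x → IsNilpotent x ∨ IsUnit x := by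
    intro x hx
    have hxQ : Fix Q (co x) := by
      intro q hq
      obtain ⟨m, -, t, ht, rfl⟩ := hcov q hq
      rw [← cj_cj, x.1.2 t (Subgroup.mem_sup_left ht)]
      exact cj_pow_fix ((hf x).symm.trans (congrArg co hx)) m
    have hxy : cj y (co x) = co x := x.1.2 y (Subgroup.mem_sup_right (Subgroup.mem_zpowers y))
    rcases h.nilpotent_or_inv hxQ hxy (hcoL x).1 (hcoL x).2 with ⟨n, hn⟩ | ⟨v, hvF, hvy, hrv, hvr, hxv, hvx⟩
    · have e : ∀ m : ℕ, co (x ^ (m + 1)) = co x ^ (m + 1) := fun m => by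
        induction m with
        | zero => rw [zero_add, pow_one, pow_one]
        | succ m ih =>
          rw [pow_succ, pow_succ (co x), ← ih]
          rfl
      exact Or.inl ⟨n + 1, hco (by rw [e, pow_succ, hn, zero_mul]; rfl)⟩
    · obtain ⟨v', hv'⟩ := hmk v (hfixH (hvF.mono hTQ) hvy) hrv hvr
      refine Or.inr ⟨⟨x, v', hco ?_, hco ?_⟩, rfl⟩
      · show co x * co v' = r
        rw [hv', hxv]
      · show co v' * co x = r
        rw [hv', hvx]
  obtain ⟨c', hc'⟩ := hmk c hcH (by rw [hc, ← mul_assoc, ← mul_assoc, h.idem]) (by rw [hc, mul_assoc, hwr])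
  let φ : hr'.Corner →+ MonoidAlgebra k G :=
    { toFun := co, map_zero' := rfl, map_add' := fun _ _ => rfl }
  have hsum : ∀ z : hr'.Corner, co (∑ m ∈ Finset.range p, (σ ^ m) z) = ∑ m ∈ Finset.range p, cj (g₀ ^ m) (co z) :=
    fun z => (map_sum φ _ _).trans (Finset.sum_congr rfl fun m _ => hσpow m z)
  obtain ⟨j, hjj, hjo, hjs⟩ := exists_orth_translates σ hσ hloc c' (hco (by rw [hsum, hc', htr]; rfl))
  have hjH : Fix H (co j) := j.1.2
  refine ⟨T₀, g₀, co j, hTQ, hgQ, hgT, hgp, hgn, hcov, hjH.mono le_sup_left,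
    hjH y (Subgroup.mem_sup_right (Subgroup.mem_zpowers y)), congrArg co hjj, ?_, ?_⟩
  · intro a b ha hb hne
    rcases lt_or_gt_of_ne hne with hlt | hlt
    · have h1 := congrArg (fun t => cj (g₀ ^ a) (co t)) (hjo (b - a) (by omega) (by omega)).1
      change cj (g₀ ^ a) (co j * co ((σ ^ (b - a)) j)) = cj (g₀ ^ a) 0 at h1
      rwa [map_mul, hσpow, cj_cj, ← pow_add, Nat.add_sub_cancel' hlt.le, map_zero] at h1
    · have h1 := congrArg (fun t => cj (g₀ ^ b) (co t)) (hjo (a - b) (by omega) (by omega)).2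
      change cj (g₀ ^ b) (co ((σ ^ (a - b)) j) * co j) = cj (g₀ ^ b) 0 at h1
      rwa [map_mul, hσpow, cj_cj, ← pow_add, Nat.add_sub_cancel' hlt.le, map_zero] at h1
  · rw [← hsum, hjs]
    rfl

end CfsgLib.Star
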