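import Cfsg.Agent.Blocks.NilBlock.Integral
import Cfsg.Agent.Blocks.NilBlock.Lifted
import Cfsg.Agent.Blocks.Star.Translates
import Cfsg.Agent.Blocks.Star.Eta

/-!
# The product is locally a generalized character on every `p`-subgroup
-/

set_option autoImplicit false
set_option linter.unusedSectionVars false
set_option linter.style.haveILetI false

namespace CfsgLib.Star

open Cfsg CfsgLib.Blocks CfsgLib.CharBasics CfsgLib.PairAlg CfsgLib.NilBlock
open scoped ComplexConjugate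

attribute [local instance] CfsgLib.Blocks.residueField CfsgLib.Blocks.residue_charP

universe u

variable {p : ℕ} [Fact p.Prime] {M : Ideal AlgInt} {G : Type u} [Group G] [Fintype G] (hM : IsPModular p M)

noncomputable local instance instFintypeSubgroupStarLocal (K : Subgroup G) : Fintype K := Fintype.ofFinite K

/-- Extension of a function of a subgroup of index `p` by its orbit sums. -/
noncomputable def orbitInd (p : ℕ) {Q : Subgroup G} (T : Subgroup G) (g : G) (h : T → ℂ) (u : Q) : ℂ := by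
  classical exact
  if (u : G) ∈ T then ∑ i ∈ Finset.range p,
    (if hi : (g ^ i)⁻¹ * (u : G) * g ^ i ∈ T then h ⟨_, hi⟩ else 0) else 0

include hM in
theorem ro_orbitInd {Q T : Subgroup G} {g : G} (hTQ : T ≤ Q) (hgQ : g ∈ Q) (hgT : g ∉ T) (hgp : g ^ p ∈ T)
    (hgn : g ∈ Subgroup.normalizer (T : Set G)) (hcov : ∀ q ∈ Q, ∃ m < p, ∃ t ∈ T, q = g ^ m * t)
    {h : T → ℂ} (hh : RO M T h) : RO M Q (orbitInd p T g h) := by
  classical
  have hp := (Fact.out : p.Prime)
  haveI : Fintype (IrrCharacter T) := @Fintype.ofFinite _ finite_irrCharacter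
  have hnm : ∀ i : ℕ, ∀ t, (g ^ i)⁻¹ * t * g ^ i ∈ T ↔ t ∈ T := fun i t => by
    have := (Subgroup.mem_normalizer_iff.1 (Subgroup.pow_mem _ hgn i) ((g ^ i)⁻¹ * t * g ^ i))
    rw [show g ^ i * ((g ^ i)⁻¹ * t * g ^ i) * (g ^ i)⁻¹ = t by group] at this
    exact this
  let H : G → ℂ := fun t => if ht : t ∈ T then h ⟨t, ht⟩ else 0
  have hH : ∀ v : T, H v = h v := fun v => dif_pos v.2
  have hHT : ∀ t ∈ T, ∀ v ∈ T, H (t * v * t⁻¹) = H v := fun t ht v hv => by
    simp only [H, dif_pos hv, dif_pos (T.mul_mem (T.mul_mem ht hv) (T.inv_mem ht))]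
    exact hh.1 ⟨v, hv⟩ ⟨t, ht⟩
  have hS : ∀ u : Q, orbitInd p T g h u =
      if (u : G) ∈ T then ∑ i ∈ Finset.range p, H ((g ^ i)⁻¹ * u * g ^ i) else 0 := fun u => rfl
  set S : G → ℂ := fun v => ∑ i ∈ Finset.range p, H ((g ^ i)⁻¹ * v * g ^ i) with hSdef
  have hSg : ∀ v ∈ T, S (g⁻¹ * v * g) = S v := fun v hv => by
    simp only [hSdef]
    rw [← sum_range_rotate hp.pos (fun i => H ((g ^ i)⁻¹ * v * g ^ i)) ?_]
    · exact Finset.sum_congr rfl fun i _ => congrArg H (by rw [pow_succ']; group)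
    · rw [pow_zero, inv_one, one_mul, mul_one]
      have := hHT (g ^ p)⁻¹ (T.inv_mem hgp) v hv
      rwa [inv_inv] at this
  have hSt : ∀ t ∈ T, ∀ v ∈ T, S (t⁻¹ * v * t) = S v := fun t ht v hv => by
    refine Finset.sum_congr rfl fun i _ => ?_
    rw [show (g ^ i)⁻¹ * (t⁻¹ * v * t) * g ^ i =
      ((g ^ i)⁻¹ * t⁻¹ * g ^ i) * ((g ^ i)⁻¹ * v * g ^ i) * ((g ^ i)⁻¹ * t⁻¹ * g ^ i)⁻¹ by group]
    exact hHT _ ((hnm i _).2 (T.inv_mem ht)) _ ((hnm i _).2 hv)
  have hSgi : ∀ m : ℕ, ∀ v ∈ T, S ((g ^ m)⁻¹ * v * g ^ m) = S v := fun m => by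
    induction m with
    | zero => intro v _; simp
    | succ m ih =>
      intro v hv
      rw [show (g ^ (m + 1))⁻¹ * v * g ^ (m + 1) = g⁻¹ * ((g ^ m)⁻¹ * v * g ^ m) * g by rw [pow_succ]; group,
        hSg _ ((hnm m v).2 hv), ih v hv]
  refine ⟨fun u w => ?_, fun θ => ?_⟩
  · obtain ⟨m, -, t, ht, hw⟩ := hcov (w : G)⁻¹ (Q.inv_mem w.2)
    have hwu : ((w * u * w⁻¹ : Q) : G) = t⁻¹ * ((g ^ m)⁻¹ * u * g ^ m) * t := by
      push_cast
      rw [hw, show (w : G) = (g ^ m * t)⁻¹ by rw [← hw, inv_inv]]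
      group
    have hiff : ((w * u * w⁻¹ : Q) : G) ∈ T ↔ (u : G) ∈ T := by
      rw [hwu, ← hnm m (u : G)]
      refine ⟨fun h1 => ?_, fun h1 => T.mul_mem (T.mul_mem (T.inv_mem ht) h1) ht⟩
      have := T.mul_mem (T.mul_mem ht h1) (T.inv_mem ht)
      simpa [mul_assoc] using this
    rw [hS, hS]
    by_cases hu : (u : G) ∈ T
    · rw [if_pos (hiff.2 hu), if_pos hu]
      show S _ = S _
      rw [hwu, hSt t ht _ ((hnm m _).2 hu), hSgi m _ hu]
    · rw [if_neg (fun h1 => hu (hiff.1 h1)), if_neg hu]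
  -- Frobenius reciprocity
  have hgd : ∀ d : ℕ, d < p → g ^ d ∈ T → d = 0 := fun d hd hdT => by
    by_contra h0
    obtain ⟨a, b, hab⟩ := Int.isCoprime_iff_gcd_eq_one.2 (show Int.gcd (d : ℤ) (p : ℤ) = 1 by
      rw [Int.gcd_natCast_natCast]
      exact (hp.coprime_iff_not_dvd.2 fun hdd => by have := Nat.le_of_dvd (by omega) hdd; omega).symm)
    refine hgT ?_
    have : g = (g ^ d) ^ a * (g ^ p) ^ b := by
      rw [← zpow_natCast, ← zpow_natCast, ← zpow_mul, ← zpow_mul, ← zpow_add, mul_comm (d : ℤ), mul_comm (p : ℤ), hab, zpow_one]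
    rw [this]
    exact T.mul_mem (zpow_mem hdT a) (zpow_mem hgp b)
  let Ψ : Fin p × T → Q := fun x => ⟨g ^ (x.1 : ℕ) * x.2, Q.mul_mem (Q.pow_mem hgQ _) (hTQ x.2.2)⟩
  have hΨ : Function.Bijective Ψ := by
    refine ⟨fun a b hab => ?_, fun q => ?_⟩
    · have e : g ^ (a.1 : ℕ) * a.2 = g ^ (b.1 : ℕ) * b.2 := congrArg Subtype.val hab
      have key : (a.1 : ℕ) = b.1 := by
        rcases le_total (a.1 : ℕ) b.1 with hle | hle
        · have h1 : g ^ ((b.1 : ℕ) - a.1) = (a.2 : G) * (b.2 : G)⁻¹ := by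
            rw [pow_sub g hle, eq_mul_inv_iff_mul_eq, ← mul_left_cancel_iff (a := g ^ (a.1 : ℕ)), e]
            rw [← mul_assoc, (Commute.pow_pow_self g b.1 a.1).inv_right.eq, ← mul_assoc, mul_inv_cancel, one_mul]
          have := hgd _ (by omega) (h1 ▸ T.mul_mem a.2.2 (T.inv_mem b.2.2))
          omega
        · have h1 : g ^ ((a.1 : ℕ) - b.1) = (b.2 : G) * (a.2 : G)⁻¹ := by
            rw [pow_sub g hle, eq_mul_inv_iff_mul_eq, ← mul_left_cancel_iff (a := g ^ (b.1 : ℕ)), ← e]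
            rw [← mul_assoc, (Commute.pow_pow_self g a.1 b.1).inv_right.eq, ← mul_assoc, mul_inv_cancel, one_mul]
          have := hgd _ (by omega) (h1 ▸ T.mul_mem b.2.2 (T.inv_mem a.2.2))
          omega
      rw [key, mul_left_cancel_iff] at e
      exact Prod.ext (Fin.ext key) (Subtype.ext e)
    · obtain ⟨m, hm, t, ht, hq⟩ := hcov q q.2
      exact ⟨(⟨m, hm⟩, ⟨t, ht⟩), Subtype.ext hq.symm⟩
  have hcard : (Nat.card Q : ℂ) = p * Nat.card T := by
    rw [← Nat.card_congr (Equiv.ofBijective Ψ hΨ), Nat.card_prod, Nat.card_eq_fintype_card (α := Fin p), Fintype.card_fin]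
    push_cast; ring
  have hsum : ∑ u : Q, orbitInd p T g h u * conj ((θ : Q → ℂ) u) =
      (p : ℂ) * ∑ v : T, h v * conj ((θ : Q → ℂ) ⟨v, hTQ v.2⟩) := by
    have e1 : ∑ u : Q, orbitInd p T g h u * conj ((θ : Q → ℂ) u) =
        ∑ v : T, S v * conj ((θ : Q → ℂ) ⟨v, hTQ v.2⟩) := by
      rw [← Finset.sum_filter_add_sum_filter_not Finset.univ (fun u : Q => (u : G) ∈ T),
        Finset.sum_eq_zero (s := Finset.univ.filter fun u : Q => ¬ (u : G) ∈ T) (fun u hu => by
          rw [hS, if_neg (Finset.mem_filter.1 hu).2, zero_mul]), add_zero]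
      refine Finset.sum_bij' (fun u hu => (⟨u, (Finset.mem_filter.1 hu).2⟩ : T)) (fun v _ => ⟨v, hTQ v.2⟩)
        (fun _ _ => Finset.mem_univ _) (fun v _ => Finset.mem_filter.2 ⟨Finset.mem_univ _, v.2⟩)
        (fun _ _ => rfl) (fun _ _ => rfl) (fun u hu => ?_)
      rw [hS, if_pos (Finset.mem_filter.1 hu).2]
    rw [e1]
    simp only [hSdef, Finset.sum_mul]
    rw [Finset.sum_comm, Finset.sum_congr rfl (g := fun _ => ∑ v : T, h v * conj ((θ : Q → ℂ) ⟨v, hTQ v.2⟩)) fun i _ => ?_,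
      Finset.sum_const, Finset.card_range, nsmul_eq_mul]
    refine Finset.sum_bij' (fun v _ => (⟨(g ^ i)⁻¹ * v * g ^ i, (hnm i _).2 v.2⟩ : T))
      (fun v _ => ⟨g ^ i * v * (g ^ i)⁻¹, (Subgroup.mem_normalizer_iff.1 (Subgroup.pow_mem _ hgn i) _).1 v.2⟩)
      (fun _ _ => Finset.mem_univ _) (fun _ _ => Finset.mem_univ _) (fun v _ => Subtype.ext (by simp [mul_assoc]))
      (fun v _ => Subtype.ext (by simp [mul_assoc])) (fun v _ => ?_)
    rw [show H ((g ^ i)⁻¹ * v * g ^ i) = h ⟨_, (hnm i _).2 v.2⟩ from dif_pos _]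
    congr 2
    have := isClassFunction (isCharacter_of_irr θ.2) ⟨v, hTQ v.2⟩ (⟨g ^ i, Q.pow_mem hgQ i⟩⁻¹)
    rw [← this]
    refine congrArg _ (Subtype.ext ?_)
    push_cast
    group
  rw [classInner_eq, hsum, hcard]
  have hres : IsCharacter T (fun v : T => (θ : Q → ℂ) ⟨v, hTQ v.2⟩) :=
    isCharacter_comp (isCharacter_of_irr θ.2) (Subgroup.inclusion hTQ)
  have e2 : ∀ v : T, (θ : Q → ℂ) ⟨v, hTQ v.2⟩ =
      ∑ ψ : IrrCharacter T, classInner (fun v : T => (θ : Q → ℂ) ⟨v, hTQ v.2⟩) (ψ : T → ℂ) * (ψ : T → ℂ) v := fun v => by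
    conv_lhs => rw [show (θ : Q → ℂ) ⟨v, hTQ v.2⟩ = (fun v : T => (θ : Q → ℂ) ⟨v, hTQ v.2⟩) v from rfl,
      classFun_expand (isClassFunction hres)]
    simp [Finset.sum_apply]
  have e3 : ((p : ℂ) * (Nat.card T : ℂ))⁻¹ * ((p : ℂ) * ∑ v : T, h v * conj ((θ : Q → ℂ) ⟨v, hTQ v.2⟩)) =
      ∑ ψ : IrrCharacter T, conj (classInner (fun v : T => (θ : Q → ℂ) ⟨v, hTQ v.2⟩) (ψ : T → ℂ)) *
        classInner h (ψ : T → ℂ) := by
    simp only [classInner_eq h, Finset.mul_sum]
    rw [Finset.sum_comm]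
    refine Finset.sum_congr rfl fun v _ => ?_
    conv_lhs => rw [e2 v, map_sum, Finset.mul_sum, Finset.mul_sum, Finset.mul_sum]
    refine Finset.sum_congr rfl fun ψ _ => ?_
    rw [map_mul, mul_inv]
    field_simp [Nat.cast_ne_zero.2 hp.ne_zero]
  rw [e3]
  refine memLocalRing_sum hM _ fun ψ _ => memLocalRing_mul hM ?_ (hh.2 ψ)
  obtain ⟨m, hm⟩ := classInner_character_nat hres ψ
  rw [hm, Complex.conj_natCast]
  exact memLocalRing_natCast hM m

/-- Reduction of an element of the complex group algebra. -/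
noncomputable abbrev upG (z : MonoidAlgebra ℂ G) : MonoidAlgebra (Residue hM) G := up hM (MonoidHom.id G) z

theorem coeff_upG (z : MonoidAlgebra ℂ G) (g : G) : (upG hM z).coeff g = rd hM (z.coeff g) :=
  coeff_up hM (MonoidHom.id G) id_injective z g

theorem upG_cj (g : G) (z : MonoidAlgebra ℂ G) : upG hM (cj g z) = cj g (upG hM z) := by
  ext x
  rw [coeff_upG, coeff_cj, coeff_cj, coeff_upG]

theorem fix_upG {H : Subgroup G} {z : MonoidAlgebra ℂ G} (h : Fix H z) : Fix H (upG hM z) := fun u hu => by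
  rw [← upG_cj, h u hu]

theorem exists_fixed_lift {Q : Subgroup G} {y : G} {r : MonoidAlgebra (Residue hM) G} (hr : Fix Q r) (hry : cj y r = r) :
    ∃ z : MonoidAlgebra ℂ G, IsIntegralElt M z ∧ upG hM z = r ∧ Fix Q z ∧ cj y z = z := by
  choose s hs1 hs2 using exists_rd hM
  refine ⟨ofFun fun x => s (r.coeff x), fun g => by rw [coeff_ofFun]; exact hs1 _, ?_, fix_of_coeff fun u hu x => by
    rw [coeff_ofFun, coeff_ofFun, hr.coeff hu], ?_⟩
  · ext g
    rw [coeff_upG, coeff_ofFun, hs2]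
  · ext x
    rw [coeff_cj, coeff_ofFun, coeff_ofFun]
    congr 1
    rw [← coeff_cj (k := Residue hM), hry]

theorem up_res (u : G) (z : MonoidAlgebra ℂ G) :
    up hM (cen u).subtype (ZStar.res (cen u) z) = cut (cen u) (upG hM z) := by
  ext g
  by_cases hg : g ∈ cen u
  · rw [show g = (cen u).subtype ⟨g, hg⟩ from rfl, coeff_up hM _ (cen u).subtype_injective, ZStar.coeff_res,
      Subgroup.subtype_apply, coeff_cut_of_mem _ hg, coeff_upG]
  · rw [coeff_up_of_notMem hM _ _ (by rwa [Subgroup.range_subtype]), coeff_cut_of_notMem _ hg]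

include hM

theorem small_of_up {H : Type*} [Group H] [Fintype H] {ι : H →* G} (hι : Function.Injective ι)
    {w : MonoidAlgebra ℂ H} (hw : IsIntegralElt M w) (h : up hM ι w = 0) : Small M w := fun a => by
  rw [← rd_eq_zero hM (hw a), ← coeff_up hM ι hι, h]
  simp

theorem isIntegralElt_res {z : MonoidAlgebra ℂ G} (hz : IsIntegralElt M z) (K : Subgroup G) :
    IsIntegralElt M (ZStar.res K z) := fun h => by rw [ZStar.coeff_res]; exact hz _

theorem isIntegralElt_cj {z : MonoidAlgebra ℂ G} (hz : IsIntegralElt M z) (g : G) : IsIntegralElt M (cj g z) :=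
  fun h => by rw [coeff_cj]; exact hz _

theorem isIntegralElt_single {H : Type*} [Group H] [Fintype H] (g : H) :
    IsIntegralElt M (MonoidAlgebra.single g (1 : ℂ)) := fun x => by
  classical
  rw [MonoidAlgebra.coeff_single, Finsupp.single_apply]
  split_ifs
  exacts [memLocalRing_one hM, memLocalRing_zero hM]

omit hM in
theorem commute_single_of_cj {H : Type*} [Group H] [Fintype H] {a : H} {w : MonoidAlgebra ℂ H}
    (h : ∀ x, w.coeff (a * x * a⁻¹) = w.coeff x) : Commute (MonoidAlgebra.single a (1 : ℂ)) w := by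
  classical
  show _ = _
  ext x
  rw [MonoidAlgebra.coeff_single_mul_apply, MonoidAlgebra.coeff_mul_single_apply, one_mul, mul_one,
    ← h (a⁻¹ * x)]
  congr 1
  group

variable {P : Subgroup G} {e : Set (IrrCharacter (Subgroup.centralizer (P : Set G)))} {η : G → ℂ}
  {B : Set (IrrCharacter G)} (χ : IrrCharacter G) (hηi : ∀ x, MemLocalRing M (η x))
include hηi

theorem memLocalRing_ev (x : G) (a : MonoidAlgebra (Residue hM) G) : MemLocalRing M (ev hM P e η x a) := by
  by_cases h : ∃ g, LE' p ⊤ (cm g (Subgroup.zpowers x)) (cj g a) P (bc hM P e)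
  · rw [ev, dif_pos h]; exact hηi _
  · rw [ev_of_not hM h]; exact memLocalRing_zero hM

theorem isIntegralElt_Eu (u : G) : IsIntegralElt M (Eu hM P e η u) := fun c => by
  letI : Fintype (IrrCharacter (cen u)) := @Fintype.ofFinite _ finite_irrCharacter
  rw [Eu, MonoidAlgebra.coeff_sum, Finsupp.finsetSum_apply]
  refine memLocalRing_sum hM _ fun b hb => ?_
  rw [MonoidAlgebra.coeff_smul, Finsupp.smul_apply, smul_eq_mul]
  exact memLocalRing_mul hM (memLocalRing_ev hM hηi _ _) (isIntegralElt_blockElt hM (mem_blockFinset.1 hb) c)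

omit hηi in
theorem commute_Eu (u : G) (w : MonoidAlgebra ℂ (cen u)) : Commute (Eu hM P e η u) w := by
  letI : Fintype (IrrCharacter (cen u)) := @Fintype.ofFinite _ finite_irrCharacter
  unfold Eu
  exact Commute.sum_left _ _ _ fun b _ => ((isClassElt_blockElt b).commute w).smul_left _

/-- The coefficient of the trace. -/
noncomputable abbrev kU (u y : G) : MonoidAlgebra ℂ (cen u) :=
  ZStar.res (cen u) (MonoidAlgebra.single (u * y) 1) * Eu hM P e η u

variable {Q : Subgroup G} {y : G} (hy : y ∈ Subgroup.centralizer (Q : Set G))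
include hy

theorem commute_kU {u : G} (hu : u ∈ Q) {z : MonoidAlgebra ℂ G} (hz : Fix Q z) (hzy : cj y z = z) :
    kU hM (P := P) (e := e) (η := η) u y * ZStar.res (cen u) z = ZStar.res (cen u) z * kU hM (P := P) (e := e) (η := η) u y := by
  have huy : u * y ∈ cen u := (cen u).mul_mem (Subgroup.mem_centralizer_singleton_iff.2 rfl)
    (Subgroup.mem_centralizer_singleton_iff.2 (Subgroup.mem_centralizer_iff.1 hy u hu).symm)
  have h1 : Commute (ZStar.res (cen u) (MonoidAlgebra.single (u * y) 1)) (ZStar.res (cen u) z) := by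
    rw [show u * y = ((⟨u * y, huy⟩ : cen u) : G) from rfl, res_single_of_mem]
    refine commute_single_of_cj fun x => ?_
    rw [ZStar.coeff_res, ZStar.coeff_res, Subgroup.coe_mul, Subgroup.coe_mul, Subgroup.coe_inv,
      show u * y * (x : G) * (u * y)⁻¹ = u * (y * (x : G) * y⁻¹) * u⁻¹ by group, hz.coeff hu]
    conv_lhs => rw [← hzy, coeff_cj]
    congr 1
    group
  exact (h1.mul_left (commute_Eu hM u _)).eq

omit hy in
theorem isIntegralElt_kU (u y : G) : IsIntegralElt M (kU hM (P := P) (e := e) (η := η) u y) :=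
  (isIntegralElt_res hM (isIntegralElt_single hM _) _).mul hM (isIntegralElt_Eu hM hηi u)

omit hy in
theorem valOn_props (u : G) : IsClassFunction (cen u) (fun c : cen u => (χ : G → ℂ) c) ∧
    ∀ c : cen u, MemLocalRing M ((χ : G → ℂ) c) :=
  ⟨fun a b => isClassFunction (isCharacter_of_irr χ.2) (a : G) (b : G), fun c => memLocalRing_apply hM χ _⟩

/-- The weighted values only depend on the residue. -/
theorem phi_congr {z z' : MonoidAlgebra ℂ G} (hzi : IsIntegralElt M z) (hzi' : IsIntegralElt M z')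
    (hz : Fix Q z) (hzy : cj y z = z) (hz' : Fix Q z') (hzy' : cj y z' = z') (he : upG hM z = upG hM z') (m : ℕ) :
    ∃ n₀, ∀ n ≥ n₀, ∀ u : Q, PDiv p M m (Phi hM P e η χ n z u y - Phi hM P e η χ n z' u y) := by
  classical
  have h : ∀ u : Q, ∃ n₀, ∀ n ≥ n₀, PDiv p M m (Phi hM P e η χ n z u y - Phi hM P e η χ n z' u y) := fun u => by
    obtain ⟨hF, hFi⟩ := valOn_props hM χ hηi (u : G)
    obtain ⟨n₀, hn₀⟩ := trace_congr hM hF hFi (isIntegralElt_res hM hzi (cen (u : G)))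
      (isIntegralElt_res hM hzi' (cen (u : G))) (fun c => by
        rw [← ZStar.res_sub, ZStar.coeff_res, MonoidAlgebra.coeff_sub, Finsupp.sub_apply,
          ← rd_congr hM (hzi _) (hzi' _), ← coeff_upG, ← coeff_upG, he]) m
    exact ⟨n₀, fun n hn => hn₀ n hn _ (isIntegralElt_kU hM hηi _ _) (commute_kU hM hηi hy u.2 hz hzy)
      (commute_kU hM hηi hy u.2 hz' hzy')⟩
  choose n₀ hn₀ using h
  exact ⟨Finset.univ.sup n₀, fun n hn u => hn₀ u n ((Finset.le_sup (Finset.mem_univ u)).trans hn)⟩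

omit hy in
/-- Nothing is seen where the residue is killed by the Brauer map. -/
theorem phi_small {z : MonoidAlgebra ℂ G} (hzi : IsIntegralElt M z) (u : G) (h0 : cut (cen u) (upG hM z) = 0) (m : ℕ) :
    ∃ n₀, ∀ n ≥ n₀, PDiv p M m (Phi hM P e η χ n z u y) := by
  obtain ⟨n₀, hn₀⟩ := trace_small hM (valOn_props hM χ hηi u).2
    (small_of_up hM (cen u).subtype_injective (isIntegralElt_res hM hzi _) (by rw [up_res, h0])) m
  exact ⟨n₀, fun n hn => hn₀ n hn _ (isIntegralElt_kU hM hηi _ _)⟩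

/-- The weighted values are additive along orthogonal residues. -/
theorem phi_sum {ι : Type*} [Fintype ι] {z : MonoidAlgebra ℂ G} (zi : ι → MonoidAlgebra ℂ G)
    (hzi : IsIntegralElt M z) (hzii : ∀ i, IsIntegralElt M (zi i)) {u : G} (hu : u ∈ Q) (hz : Fix Q z)
    (hzy : cj y z = z)
    (hcomm : ∀ i, kU hM (P := P) (e := e) (η := η) u y * ZStar.res (cen u) (zi i) =
      ZStar.res (cen u) (zi i) * kU hM (P := P) (e := e) (η := η) u y)
    (horth : ∀ i j, i ≠ j → cut (cen u) (upG hM (zi i)) * cut (cen u) (upG hM (zi j)) = 0)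
    (hsum : cut (cen u) (upG hM z) = ∑ i, cut (cen u) (upG hM (zi i))) (m : ℕ) :
    ∃ n₀, ∀ n ≥ n₀, PDiv p M m (Phi hM P e η χ n z u y - ∑ i, Phi hM P e η χ n (zi i) u y) := by
  classical
  obtain ⟨hF, hFi⟩ := valOn_props hM χ hηi u
  have hi : ∀ i, IsIntegralElt M (ZStar.res (cen u) (zi i)) := fun i => isIntegralElt_res hM (hzii i) _
  have hsI : IsIntegralElt M (∑ i, ZStar.res (cen u) (zi i)) := isIntegralElt_sum hM _ _ fun i _ => hi i
  obtain ⟨n₁, hn₁⟩ := trace_words hM hF hFi (fun i => ZStar.res (cen u) (zi i)) hi (fun i j hij =>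
    small_of_up hM (cen u).subtype_injective ((hi i).mul hM (hi j))
      (by rw [up_mul hM _ (hi i) (hi j), up_res, up_res, horth i j hij])) m
  obtain ⟨n₂, hn₂⟩ := trace_congr hM hF hFi (isIntegralElt_res hM hzi (cen u)) hsI
    (small_of_up hM (cen u).subtype_injective (isIntegralElt_sub hM (isIntegralElt_res hM hzi _) hsI) (by
      rw [up_sub hM _ (isIntegralElt_res hM hzi _) hsI, up_sum hM _ _ _ (fun i _ => hi i), up_res,
        Finset.sum_congr rfl fun i _ => up_res hM u (zi i), hsum, sub_self])) m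
  refine ⟨n₁ + n₂, fun n hn => ?_⟩
  have hk := isIntegralElt_kU hM (P := P) (e := e) hηi u y
  have h1 := hn₁ n (by omega) _ hk hcomm
  have h2 := hn₂ n (by omega) _ hk (commute_kU hM hηi hy hu hz hzy)
    (by rw [Finset.mul_sum, Finset.sum_mul]; exact Finset.sum_congr rfl fun i _ => hcomm i)
  have := h2.add hM h1
  rwa [sub_add_sub_cancel] at this

end CfsgLib.Star
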