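import Cfsg.Agent.Blocks.NilBlock.Source
import Cfsg.Agent.Blocks.PairAlg.Full
import Cfsg.Agent.Blocks.Star.Green

/-!
# Primitive idempotents fixed by a `p`-group and a regular element commuting with it
-/

set_option autoImplicit false
set_option linter.unusedSectionVars false
set_option linter.style.haveILetI false

namespace CfsgLib.Star

open CfsgLib.PairAlg CfsgLib.NilBlock

variable {k : Type*} [Field k] {G : Type*} [Group G] [Fintype G] {p : ℕ} [Fact p.Prime] [CharP k p]

theorem fix_sup {H : Subgroup G} {y : G} {a : MonoidAlgebra k G} (h : Fix H a) (hy : cj y a = a) :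
    Fix (H ⊔ Subgroup.zpowers y) a := fun u hu =>
  (sup_le (c := stabOf a) (fun v hv => h v hv) (Subgroup.zpowers_le.2 hy)) hu

theorem cj_pow_fix {y : G} {a : MonoidAlgebra k G} (hy : cj y a = a) (n : ℕ) : cj (y ^ n) a = a := by
  induction n with
  | zero => rw [pow_zero, cj_one_apply]
  | succ n ih => rw [pow_succ, ← cj_cj, hy, ih]

/-- The average under conjugation by `y`. -/
noncomputable def avg (y : G) (a : MonoidAlgebra k G) : MonoidAlgebra k G :=
  (orderOf y : k)⁻¹ • ∑ i ∈ Finset.range (orderOf y), cj (y ^ i) a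

theorem avg_of_fix {y : G} (hy : ¬ p ∣ orderOf y) {a : MonoidAlgebra k G} (ha : cj y a = a) : avg y a = a := by
  rw [avg, Finset.sum_congr rfl fun i _ => cj_pow_fix ha i, Finset.sum_const, Finset.card_range, ← Nat.cast_smul_eq_nsmul k,
    smul_smul, inv_mul_cancel₀ (fun h => hy ((CharP.cast_eq_zero_iff k p _).1 h)), one_smul]

theorem cj_avg (y : G) (a : MonoidAlgebra k G) : cj y (avg y a) = avg y a := by
  rw [avg, cj_smul, map_sum, Finset.sum_congr rfl fun i _ => by rw [cj_cj, ← pow_succ']]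
  rw [sum_range_rotate (orderOf_pos y) (fun i => cj (y ^ i) a) (by simp [pow_orderOf_eq_one])]

theorem fix_avg {H : Subgroup G} {y : G} (hy : y ∈ Subgroup.centralizer (H : Set G)) {a : MonoidAlgebra k G}
    (ha : Fix H a) : Fix H (avg y a) := fun u hu => by
  have hc : ∀ i : ℕ, u * y ^ i = y ^ i * u := fun i =>
    (Commute.pow_right (show Commute u y from Subgroup.mem_centralizer_iff.1 hy u hu) i).eq
  rw [avg, cj_smul, map_sum, Finset.sum_congr rfl fun i _ => by rw [cj_cj, hc, ← cj_cj, ha u hu]]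

theorem cm_centralizer_of_mem {R : Subgroup G} {y : G} (hy : y ∈ Subgroup.centralizer (R : Set G)) :
    cm y (Subgroup.centralizer (R : Set G)) = Subgroup.centralizer (R : Set G) :=
  cm_of_mem_normalizer (Subgroup.le_normalizer hy)

theorem cj_br_of_mem {R : Subgroup G} {y : G} (hy : y ∈ Subgroup.centralizer (R : Set G)) (a : MonoidAlgebra k G) :
    cj y (Br R a) = Br R (cj y a) := by
  rw [← br_cm, show cm y R = R from cm_of_mem_normalizer (centralizer_le_normalizer R hy)]

theorem br_avg {R : Subgroup G} {y : G} (hy : y ∈ Subgroup.centralizer (R : Set G)) (a : MonoidAlgebra k G) :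
    Br R (avg y a) = avg y (Br R a) := by
  rw [avg, avg, map_smul, map_sum]
  exact congrArg _ (Finset.sum_congr rfl fun i _ => (cj_br_of_mem (Subgroup.pow_mem _ hy i) a).symm)

variable {Q : Subgroup G} {y : G} {r : MonoidAlgebra k G}

/-- A primitive idempotent among those fixed by `Q` and `y`. -/
structure Prim (Q : Subgroup G) (y : G) (r : MonoidAlgebra k G) : Prop where
  fix : Fix Q r
  fixy : cj y r = r
  idem : r * r = r
  ne : r ≠ 0
  prim : ∀ x, Fix Q x → cj y x = x → x * x = x → r * x = x → x * r = x → x = 0 ∨ x = r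

theorem Prim.nilpotent_or_inv (h : Prim Q y r) {x : MonoidAlgebra k G} (hx : Fix Q x) (hxy : cj y x = x)
    (hrx : r * x = x) (hxr : x * r = x) :
    IsNilpotent x ∨ ∃ w, Fix Q w ∧ cj y w = w ∧ r * w = w ∧ w * r = w ∧ x * w = r ∧ w * x = r := by
  by_cases hnil : IsNilpotent x
  · exact Or.inl hnil
  obtain ⟨v, hv, hidem, hne⟩ := exists_idem x hnil
  have hvp : Fix Q v ∧ cj y v = v ∧ x * v = v * x := by
    clear hne hidem
    induction hv using Algebra.adjoin_induction with
    | mem a ha => rw [Set.mem_singleton_iff] at ha; subst ha; exact ⟨hx, hxy, rfl⟩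
    | algebraMap c =>
      refine ⟨?_, ?_, (Algebra.commutes c x).symm⟩
      · rw [Algebra.algebraMap_eq_smul_one]
        exact (fix_one Q).smul c
      · rw [Algebra.algebraMap_eq_smul_one, cj_smul, map_one]
    | add a b _ _ ha hb =>
      exact ⟨ha.1.add hb.1, by rw [map_add, ha.2.1, hb.2.1], by rw [mul_add, add_mul, ha.2.2, hb.2.2]⟩
    | mul a b _ _ ha hb =>
      exact ⟨ha.1.mul hb.1, by rw [map_mul, ha.2.1, hb.2.1], by rw [← mul_assoc, ha.2.2, mul_assoc, hb.2.2, mul_assoc]⟩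
  obtain ⟨hvF, hvy, hvc⟩ := hvp
  have hxvr : (x * v) * r = x * v := by rw [hvc, mul_assoc, hxr]
  have he : x * v = r := (h.prim _ (hx.mul hvF) (by rw [map_mul, hxy, hvy]) hidem (by rw [← mul_assoc, hrx]) hxvr).resolve_left hne
  refine Or.inr ⟨r * v * r, (h.fix.mul hvF).mul h.fix, by rw [map_mul, map_mul, h.fixy, hvy],
    by rw [← mul_assoc, ← mul_assoc, h.idem], by rw [mul_assoc, h.idem], ?_, ?_⟩
  · rw [← mul_assoc, ← mul_assoc, hxr, he, h.idem]
  · rw [mul_assoc, hrx, mul_assoc, ← hvc, he, h.idem]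

theorem Prim.add_nilpotent (h : Prim Q y r) {a b : MonoidAlgebra k G} (ha : Fix Q a) (hay : cj y a = a)
    (hra : r * a = a) (har : a * r = a) (hb : Fix Q b) (hby : cj y b = b) (hrb : r * b = b) (hbr : b * r = b)
    (han : IsNilpotent a) (hbn : IsNilpotent b) : IsNilpotent (a + b) := by
  rcases h.nilpotent_or_inv (ha.add hb) (by rw [map_add, hay, hby]) (by rw [mul_add, hra, hrb])
    (by rw [add_mul, har, hbr]) with h' | ⟨w, hwF, hwy, hrw, hwr, -, hw⟩
  · exact h'
  exfalso
  have key : ∀ {z : MonoidAlgebra k G}, Fix Q z → cj y z = z → r * z = z → z * r = z → IsNilpotent z →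
      IsNilpotent (w * z) := by
    intro z hz hzy hrz hzr hzn
    rcases h.nilpotent_or_inv (hwF.mul hz) (by rw [map_mul, hwy, hzy]) (by rw [← mul_assoc, hrw])
      (by rw [mul_assoc, hzr]) with h' | ⟨u, -, -, -, -, -, hu⟩
    · exact h'
    exfalso
    obtain ⟨n, hn⟩ := hzn
    have hL : ∀ m : ℕ, z ^ (m + 1) = 0 → z ^ m * r = 0 ∨ m = 0 := by
      intro m hm
      rcases m with _ | m
      · exact Or.inr rfl
      refine Or.inl ?_
      have e : r * z ^ (m + 1) = z ^ (m + 1) := by rw [pow_succ', ← mul_assoc, hrz]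
      have : z ^ (m + 1) = 0 := by
        rw [← e, ← hu, mul_assoc u, mul_assoc w, ← pow_succ', hm, mul_zero, mul_zero]
      rw [this, zero_mul]
    have hall : ∀ m : ℕ, z ^ (m + 1) = 0 → z = 0 := by
      intro m
      induction m with
      | zero => intro hm; rwa [pow_one] at hm
      | succ m ih =>
        intro hm
        refine ih ?_
        have := (hL (m + 1) hm).resolve_right (Nat.succ_ne_zero m)
        rwa [pow_succ, mul_assoc, hzr] at this
    have hz0 : z = 0 := hall n (by rw [pow_succ, hn, zero_mul])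
    exact h.ne (by rw [← hu, hz0, mul_zero, mul_zero])
  have hsum : w * a + w * b = r := by rw [← mul_add, hw]
  have hcom : Commute (w * a) (w * b) := by
    rw [eq_sub_of_add_eq' hsum]
    refine Commute.sub_right ?_ (Commute.refl _)
    show w * a * r = r * (w * a)
    rw [mul_assoc, har, ← mul_assoc, hrw]
  obtain ⟨n, hn⟩ := hcom.isNilpotent_add (key ha hay hra har han) (key hb hby hrb hbr hbn)
  rw [hsum] at hn
  rcases n with _ | n
  · exact h.ne (by rw [← mul_one r, ← pow_zero r, hn, mul_zero])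
  · exact h.ne (by rw [← IsIdempotentElem.pow_succ_eq n h.idem, hn])

/-- Not killed by the Brauer map: the truncations only meet the pairs below one pair. -/
theorem Prim.exists_pair (hc : Complete k G) (hQ : IsPGroup p Q) (hy : y ∈ Subgroup.centralizer (Q : Set G))
    (hyo : ¬ p ∣ orderOf y) (h : Prim Q y r) (hne : Br Q r ≠ 0) :
    ∃ γ, IsPair p ⊤ Q γ ∧ ∀ R δ, LE' p ⊤ R δ Q γ → Br R r * δ = Br R r := by
  classical
  obtain ⟨γ, hpair, hγr⟩ : ∃ γ, IsPair p ⊤ Q γ ∧ γ * Br Q r ≠ 0 := by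
    obtain ⟨s, hs, h1⟩ := hc (CH ⊤ Q)
    by_contra hcon
    push Not at hcon
    refine hne ?_
    rw [← one_mul (Br Q r), ← h1, Finset.sum_mul]
    exact Finset.sum_eq_zero fun γ hγ => hcon γ ⟨hQ, le_top, hs γ hγ⟩
  have key2 : ∀ x, Fix Q x → cj y x = x → r * x = x → x * r = x → γ * Br Q x = 0 → IsNilpotent x := by
    intro x hxF hxy hrx hxr hx0
    rcases h.nilpotent_or_inv hxF hxy hrx hxr with h' | ⟨w, hwF, -, -, -, hw, -⟩
    · exact h'
    · exact absurd (by rw [← hw, br_mul hQ hxF hwF, ← mul_assoc, hx0, zero_mul]) hγr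
  refine ⟨γ, hpair, ?_⟩
  suffices main : ∀ (n : ℕ) (R : Subgroup G) δ, Nat.card Q - Nat.card R ≤ n → LE' p ⊤ R δ Q γ →
      Br R r * δ = Br R r from fun R δ hle => main _ R δ le_rfl hle
  intro n
  induction n using Nat.strong_induction_on with
  | _ n ih =>
    intro R δ hn hle
    have hRQ := hle.subgroup_le
    have hp := hle.isPair hpair
    have hδc : ∀ a : MonoidAlgebra k G, Supp (Subgroup.centralizer (R : Set G)) a → δ * a = a * δ :=
      fun a ha => hp.blk.cen.comm fun x hx => ⟨Subgroup.mem_top x, ha x hx⟩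
    have hyR : y ∈ Subgroup.centralizer (R : Set G) := Subgroup.centralizer_le hRQ hy
    set d := Br R r - Br R r * δ with hd
    have hdy : cj y d = d := by
      rw [hd, map_sub, map_mul, cj_br_of_mem hyR, h.fixy, hp.blk.cen.2 y ⟨Subgroup.mem_top y, hyR⟩]
    have hBi : Br R r * Br R r = Br R r := by rw [← br_mul hp.isP (h.fix.mono hRQ) (h.fix.mono hRQ), h.idem]
    have hBc : δ * Br R r = Br R r * δ := hδc _ (supp_cut _ _)
    have hBid : Br R r * d = d := by rw [hd, mul_sub, ← mul_assoc, hBi]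
    have hdBi : d * Br R r = d := by rw [hd, sub_mul, hBi, mul_assoc, hBc, ← mul_assoc, hBi]
    have hdd : d * d = d := by
      conv_lhs => arg 2; rw [hd]
      rw [mul_sub, hdBi, ← mul_assoc, hdBi, sub_eq_self]
      rw [hd, sub_mul, mul_assoc, hp.blk.idem, sub_self]
    suffices hd0 : d = 0 from (sub_eq_zero.1 (hd ▸ hd0)).symm
    suffices hy' : ∃ a, Fix Q a ∧ Br R a = d ∧ γ * (Br Q r * Br Q a * Br Q r) = 0 by
      obtain ⟨a₀, ha₀F, ha₀R, ha₀0⟩ := hy'
      set a := avg y a₀ with ha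
      have haF : Fix Q a := fix_avg hy ha₀F
      have haR : Br R a = d := by rw [ha, br_avg hyR, ha₀R, avg_of_fix hyo hdy]
      have hγy : cj y γ = γ := hpair.blk.cen.2 y ⟨Subgroup.mem_top y, hy⟩
      have hz : γ * (Br Q r * Br Q a * Br Q r) = 0 := by
        rw [ha, br_avg hy, avg, mul_smul_comm, smul_mul_assoc, mul_smul_comm, Finset.mul_sum, Finset.sum_mul,
          Finset.mul_sum, Finset.sum_eq_zero, smul_zero]
        intro i _
        have hyi := Subgroup.pow_mem _ hy i
        rw [← cj_pow_fix hγy i, ← cj_pow_fix h.fixy i, ← cj_br_of_mem hyi, ← map_mul, ← map_mul, ← map_mul, ha₀0,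
          map_zero]
      have hyF : Fix Q (r * a * r) := (h.fix.mul haF).mul h.fix
      obtain ⟨m, hm⟩ := key2 (r * a * r) hyF (by rw [map_mul, map_mul, h.fixy, ha, cj_avg])
        (by rw [← mul_assoc, ← mul_assoc, h.idem]) (by rw [mul_assoc, h.idem])
        (by rw [br_mul hQ (h.fix.mul haF) h.fix, br_mul hQ h.fix haF]; exact hz)
      have h1 : Br R (r * a * r) = d := by
        rw [br_mul hp.isP ((h.fix.mul haF).mono hRQ) (h.fix.mono hRQ), br_mul hp.isP (h.fix.mono hRQ) (haF.mono hRQ),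
          haR, hBid, hdBi]
      have h2 := congrArg (Br R) hm
      rw [br_pow hp.isP (hyF.mono hRQ), h1, map_zero] at h2
      rcases m with _ | m
      · rw [pow_zero] at h2
        rw [← mul_one d, h2, mul_zero]
      · rwa [IsIdempotentElem.pow_succ_eq m hdd] at h2
    have hdS : Supp (Subgroup.centralizer (R : Set G)) d :=
      (supp_cut _ _).sub ((supp_cut _ _).mul (hp.blk.cen.1.mono inf_le_right))
    rcases hRQ.eq_or_lt with hR | hlt
    · subst hR
      obtain rfl : δ = γ := below_unique hc hpair hle LE'.refl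
      have hBd : Br R d = d := cut_eq_self hdS
      refine ⟨d, fix_of_supp_centralizer hdS, hBd, ?_⟩
      rw [hBd, hBid, hdBi, hd, mul_sub, ← hBc, ← mul_assoc, hp.blk.idem, sub_self]
    set N := Q ⊓ Subgroup.normalizer (R : Set G) with hN
    have hstep : ∀ T, R < T → T ≤ N → Br T d = 0 := by
      intro T hRT hTN
      obtain ⟨ε, hε⟩ := exists_below hc hpair (hTN.trans inf_le_left)
      have hεp := hε.isPair hpair
      obtain ⟨δ', hδ'⟩ := exists_below hc hεp hRT.le
      obtain rfl : δ' = δ := below_unique hc hpair (hδ'.trans hε) hle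
      have hs := hδ'.nstep hc hεp (hTN.trans inf_le_right)
      have hT : Br T r * ε = Br T r := by
        refine ih _ ?_ T ε le_rfl hε
        have h1 : Nat.card R < Nat.card T := lt_of_le_of_ne (Subgroup.card_le_of_le hRT.le)
          fun h' => hRT.ne (Subgroup.eq_of_le_of_card_ge hRT.le h'.ge)
        have h2 : Nat.card T ≤ Nat.card Q := Subgroup.card_le_of_le (hTN.trans inf_le_left)
        omega
      rw [hd, map_sub, br_mul hεp.isP (fix_br (hTN.trans inf_le_right) (h.fix.mono (hTN.trans inf_le_left))) hs.fix,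
        br_br hRT.le]
      conv_lhs => arg 2; rw [← hT, mul_assoc, hs.mul]
      rw [hT, sub_self]
    obtain ⟨ε, hε⟩ := exists_below hc hpair (inf_le_left : N ≤ Q)
    have hFN : Fix N d := by
      have hεp := hε.isPair hpair
      obtain ⟨δ', hδ'⟩ := exists_below hc hεp (le_inf hlt.le Subgroup.le_normalizer : R ≤ N)
      obtain rfl : δ' = δ := below_unique hc hpair (hδ'.trans hε) hle
      exact (fix_br inf_le_right (h.fix.mono inf_le_left)).sub
        ((fix_br inf_le_right (h.fix.mono inf_le_left)).mul (hδ'.nstep hc hεp inf_le_right).fix)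
    obtain ⟨a, haF, haR, haP⟩ := exists_lift_fix hQ hlt hdS hFN fun u hu c hc' huc hun => by
      by_contra huR
      set T := N ⊓ Subgroup.centralizer ({c} : Set G) with hT
      have hRT : R < T := by
        refine lt_of_le_of_ne (le_inf (le_inf hlt.le Subgroup.le_normalizer) fun q hq =>
          Subgroup.mem_centralizer_singleton_iff.2 (Subgroup.mem_centralizer_iff.1 (hdS c hc') q hq)) fun heq => huR ?_
        rw [heq]
        exact ⟨⟨hu, hun⟩, Subgroup.mem_centralizer_singleton_iff.2 huc⟩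
      have h0 := congrArg (fun t => t.coeff c) (hstep T hRT inf_le_left)
      have hcT : c ∈ Subgroup.centralizer (T : Set G) :=
        Subgroup.mem_centralizer_iff.2 fun q hq => Subgroup.mem_centralizer_singleton_iff.1 hq.2
      simp only [Br, coeff_cut_of_mem _ hcT] at h0
      exact hc' (by simpa using h0)
    exact ⟨a, haF, haR, by rw [haP, mul_zero, zero_mul, mul_zero]⟩

/-- An element killed by the Brauer map is a sum of traces from the maximal subgroups. -/
theorem exists_trace_parts (hQ : IsPGroup p Q) (hy : y ∈ Subgroup.centralizer (Q : Set G)) (hyo : ¬ p ∣ orderOf y)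
    (hr : Fix Q r) (hry : cj y r = r) (h0 : Br Q r = 0) :
    ∃ (ι : Type) (_ : Fintype ι) (T : ι → Subgroup G) (g : ι → G) (d : ι → MonoidAlgebra k G),
      (∀ i, T i ≤ Q ∧ g i ∈ Q ∧ g i ∉ T i ∧ g i ^ p ∈ T i ∧ g i ∈ Subgroup.normalizer (T i : Set G) ∧
        (∀ q ∈ Q, ∃ m < p, ∃ t ∈ T i, q = g i ^ m * t) ∧ Fix (T i) (d i) ∧ cj y (d i) = d i) ∧
      r = ∑ i, ∑ m ∈ Finset.range p, cj (g i ^ m) (d i) := by
  classical
  have hp := (Fact.out : p.Prime)
  haveI : Group.IsNilpotent Q := hQ.isNilpotent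
  let St : G → Subgroup Q := fun x => (Subgroup.centralizer ({x} : Set G)).subgroupOf Q
  let pick : Set (Subgroup Q) → Subgroup Q := fun s => if h : s.Nonempty then h.some else ⊤
  let TT : G → Subgroup Q := fun x => pick {T | IsCoatom T ∧ St x ≤ T}
  let pickG : Set G → G := fun s => if h : s.Nonempty then h.some else 1
  let orb : G → Set G := fun x => {z | ∃ q ∈ Q, z = q * x * q⁻¹}
  let rep : G → G := fun x => pickG (orb x)
  have hTT : ∀ x, r.coeff x ≠ 0 → IsCoatom (TT x) ∧ St x ≤ TT x := by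
    intro x hx
    have hne : St x ≠ ⊤ := by
      intro htop
      refine hx ?_
      have hxC : x ∈ Subgroup.centralizer (Q : Set G) := Subgroup.mem_centralizer_iff.2 fun q hq => by
        have : (⟨q, hq⟩ : Q) ∈ St x := htop.symm ▸ Subgroup.mem_top _
        exact Subgroup.mem_centralizer_singleton_iff.1 (Subgroup.mem_subgroupOf.1 this)
      have := congrArg (fun t => t.coeff x) h0
      simpa [Br, coeff_cut_of_mem _ hxC] using this
    obtain ⟨T, hT⟩ := (eq_top_or_exists_le_coatom (St x)).resolve_left hne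
    have hne' : {T | IsCoatom T ∧ St x ≤ T}.Nonempty := ⟨T, hT⟩
    simp only [TT, pick, dif_pos hne']
    exact hne'.some_mem
  have hcond : ∀ (T : Subgroup Q), IsCoatom T → ∀ (q : G), q ∈ Q → ∀ x, (St (q * x * q⁻¹) ≤ T ↔ St x ≤ T) := by
    intro T hT q hq x
    haveI : T.Normal := Subgroup.NormalizerCondition.normal_of_coatom T normalizerCondition_of_isNilpotent hT
    have key : ∀ (v : Q) (z : G), St z ≤ T → St ((v : G) * z * (v : G)⁻¹) ≤ T := by
      intro v z hz u hu
      have h1 : (v⁻¹ * u * v) ∈ St z := by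
        refine Subgroup.mem_subgroupOf.2 (Subgroup.mem_centralizer_singleton_iff.2 ?_)
        have h2 := Subgroup.mem_centralizer_singleton_iff.1 (Subgroup.mem_subgroupOf.1 hu)
        simp only [Subgroup.coe_mul, Subgroup.coe_inv]
        calc (v : G)⁻¹ * u * v * z = (v : G)⁻¹ * ((u : G) * ((v : G) * z * (v : G)⁻¹)) * v := by group
          _ = (v : G)⁻¹ * (((v : G) * z * (v : G)⁻¹) * u) * v := by rw [h2]
          _ = _ := by group
      have h3 := Subgroup.Normal.conj_mem inferInstance _ (hz h1) v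
      simpa [mul_assoc] using h3
    refine ⟨fun h => ?_, key ⟨q, hq⟩ x⟩
    have := key ⟨q, hq⟩⁻¹ _ h
    simpa [mul_assoc] using this
  have hTTconj : ∀ q ∈ Q, ∀ x, TT (q * x * q⁻¹) = TT x := fun q hq x =>
    congrArg pick (Set.ext fun T => and_congr_right fun hT => hcond T hT q hq x)
  have hTTy : ∀ x, TT (y * x * y⁻¹) = TT x := fun x => by
    refine congrArg pick (Set.ext fun T => and_congr_right fun _ => ?_)
    rw [show St (y * x * y⁻¹) = St x from ?_]
    ext u
    have hc : (u : G) * y = y * u := Subgroup.mem_centralizer_iff.1 hy u u.2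
    simp only [St, Subgroup.mem_subgroupOf, Subgroup.mem_centralizer_singleton_iff]
    constructor
    · intro h
      calc (u : G) * x = y⁻¹ * ((u : G) * (y * x * y⁻¹)) * y := by
            rw [← mul_assoc (u : G), ← mul_assoc (u : G), hc]; group
        _ = y⁻¹ * ((y * x * y⁻¹) * u) * y := by rw [h]
        _ = x * u := by rw [mul_assoc, mul_assoc (y * x * y⁻¹), hc]; group
    · intro h
      have hci : (u : G) * y⁻¹ = y⁻¹ * u := ((show Commute (u : G) y from hc).inv_right).eq
      calc (u : G) * (y * x * y⁻¹) = y * ((u : G) * x) * y⁻¹ := by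
            rw [← mul_assoc, ← mul_assoc, hc]; group
        _ = y * (x * u) * y⁻¹ := by rw [h]
        _ = _ := by rw [← mul_assoc, mul_assoc _ (u : G), hci, ← mul_assoc]
  have horb : ∀ q ∈ Q, ∀ x, orb (q * x * q⁻¹) = orb x := fun q hq x => Set.ext fun z =>
    ⟨fun ⟨v, hv, hz⟩ => ⟨v * q, Q.mul_mem hv hq, by rw [hz]; group⟩,
      fun ⟨v, hv, hz⟩ => ⟨v * q⁻¹, Q.mul_mem hv (Q.inv_mem hq), by rw [hz]; group⟩⟩
  have hrepc : ∀ q ∈ Q, ∀ x, rep (q * x * q⁻¹) = rep x := fun q hq x => congrArg pickG (horb q hq x)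
  have hrep : ∀ x, ∃ q ∈ Q, x = q * rep x * q⁻¹ := fun x => by
    have hne : (orb x).Nonempty := ⟨x, 1, Q.one_mem, by group⟩
    obtain ⟨v, hv, hz⟩ : rep x ∈ orb x := by simp only [rep, pickG, dif_pos hne]; exact hne.some_mem
    exact ⟨v⁻¹, Q.inv_mem hv, by rw [hz]; group⟩
  -- the index set
  have hgen : ∀ T : {T : Subgroup Q // IsCoatom T}, ∃ g : Q, g ∉ T.1 := fun T => by
    by_contra h
    push Not at h
    exact T.2.1 (eq_top_iff.2 fun x _ => h x)
  choose g₀ hg₀ using hgen
  let ι : Type := Fin (Fintype.card {T : Subgroup Q // IsCoatom T})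
  let e : ι ≃ {T : Subgroup Q // IsCoatom T} := (Fintype.equivFin _).symm
  let TG : ι → Subgroup G := fun i => (e i).1.map Q.subtype
  have hTG : ∀ i (u : Q), (u : G) ∈ TG i ↔ u ∈ (e i).1 := fun i u => by
    simp [TG, Subgroup.mem_map]
  let gG : ι → G := fun i => (g₀ (e i) : G)
  let w : ι → G → k := fun i x => if TT x = (e i).1 ∧ ∃ t ∈ TG i, x = t * rep x * t⁻¹ then r.coeff x else 0
  let d₀ : ι → MonoidAlgebra k G := fun i => ∑ x, MonoidAlgebra.single x (w i x)
  have hd₀c : ∀ i x, (d₀ i).coeff x = w i x := fun i x => by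
    simp [d₀, MonoidAlgebra.coeff_sum, MonoidAlgebra.coeff_single, Finsupp.single_apply, Finsupp.finsetSum_apply]
  have hd₀F : ∀ i, Fix (TG i) (d₀ i) := fun i => fix_of_coeff fun t ht x => by
    have htQ : t ∈ Q := Subgroup.map_subtype_le _ ht
    rw [hd₀c, hd₀c]
    simp only [w, hTTconj t htQ x, hrepc t htQ x, hr.coeff htQ x]
    refine if_congr (and_congr_right fun _ => ⟨?_, ?_⟩) rfl rfl
    · rintro ⟨s, hs, hx⟩
      exact ⟨t⁻¹ * s, (TG i).mul_mem ((TG i).inv_mem ht) hs, by rw [← mul_left_cancel_iff (a := t), ← mul_right_cancel_iff (a := t⁻¹), hx]; group⟩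
    · rintro ⟨s, hs, hx⟩
      exact ⟨t * s, (TG i).mul_mem ht hs, by conv_lhs => rw [hx]
                                             group⟩
  have hnormal : ∀ i, (e i).1.Normal := fun i =>
    Subgroup.NormalizerCondition.normal_of_coatom _ normalizerCondition_of_isNilpotent (e i).2
  have hcyc : ∀ i (q : Q), ∃ z : ℤ, ∃ t ∈ (e i).1, q = g₀ (e i) ^ z * t := by
    intro i q
    haveI := hnormal i
    have htop : (e i).1 ⊔ Subgroup.zpowers (g₀ (e i)) = ⊤ := (e i).2.2 _ (lt_of_le_of_ne le_sup_left fun h =>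
      hg₀ (e i) (h ▸ Subgroup.mem_sup_right (Subgroup.mem_zpowers _)))
    have hq : q ∈ Subgroup.zpowers (g₀ (e i)) ⊔ (e i).1 := by rw [sup_comm, htop]; exact Subgroup.mem_top q
    obtain ⟨a, ha, t, ht, rfl⟩ := Subgroup.mem_sup_of_normal_right.1 hq
    obtain ⟨z, rfl⟩ := Subgroup.mem_zpowers_iff.1 ha
    exact ⟨z, t, ht, rfl⟩
  have hgp : ∀ i, g₀ (e i) ^ p ∈ (e i).1 := by
    intro i
    haveI := hnormal i
    by_contra hgp
    set π := QuotientGroup.mk' (e i).1 with hπ
    have htop : (e i).1 ⊔ Subgroup.zpowers (g₀ (e i) ^ p) = ⊤ := (e i).2.2 _ (lt_of_le_of_ne le_sup_left fun h =>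
      hgp (h ▸ Subgroup.mem_sup_right (Subgroup.mem_zpowers _)))
    have hmem : g₀ (e i) ∈ Subgroup.zpowers (g₀ (e i) ^ p) ⊔ (e i).1 := by rw [sup_comm, htop]; exact Subgroup.mem_top _
    obtain ⟨a, ha, t, ht, hat⟩ := Subgroup.mem_sup_of_normal_right.1 hmem
    obtain ⟨z, rfl⟩ := Subgroup.mem_zpowers_iff.1 ha
    set γ := π (g₀ (e i)) with hγ
    have h1 : γ ^ ((p : ℤ) * z - 1) = 1 := by
      have h2 := congrArg π hat
      rw [map_mul, map_zpow, map_pow, show π t = 1 from (QuotientGroup.eq_one_iff t).2 ht, mul_one, ← zpow_natCast,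
        ← zpow_mul] at h2
      rw [zpow_sub, zpow_one, h2, mul_inv_cancel]
    obtain ⟨m, hm⟩ := hQ.to_quotient (e i).1 γ
    have hord := Nat.dvd_prime_pow hp |>.1 (orderOf_dvd_of_pow_eq_one hm)
    obtain ⟨j, -, hj⟩ := hord
    refine hg₀ (e i) ((QuotientGroup.eq_one_iff _).1 ?_)
    rcases j with _ | j
    · exact orderOf_eq_one_iff.1 (hj.trans (pow_zero p))
    · exfalso
      have h2 := orderOf_dvd_iff_zpow_eq_one.2 h1
      rw [hj] at h2
      have h3 : (p : ℤ) ∣ (p : ℤ) * z - 1 := dvd_trans (by push_cast; exact dvd_pow_self _ (Nat.succ_ne_zero j)) h2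
      have h4 : (p : ℤ) ∣ 1 := by simpa using dvd_sub (dvd_mul_right (p : ℤ) z) h3
      exact hp.not_dvd_one (by exact_mod_cast h4)
  have hpz : ∀ i (z : ℤ), g₀ (e i) ^ ((p : ℤ) * z) ∈ (e i).1 := fun i z => by
    rw [zpow_mul, zpow_natCast]; exact zpow_mem (hgp i) z
  have hcover : ∀ i, ∀ q ∈ Q, ∃ m < p, ∃ t ∈ TG i, q = gG i ^ m * t := by
    intro i q hq
    obtain ⟨z, t, ht, he⟩ := hcyc i ⟨q, hq⟩
    have hpz0 : (0 : ℤ) < p := by exact_mod_cast hp.pos
    refine ⟨(z % p).toNat, by have := Int.emod_lt_of_pos z hpz0; have := Int.emod_nonneg z hpz0.ne'; omega,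
      ((g₀ (e i) ^ ((p : ℤ) * (z / p)) * t : Q) : G), (hTG i _).2 ((e i).1.mul_mem (hpz i _) ht), ?_⟩
    have h1 : g₀ (e i) ^ z = g₀ (e i) ^ (z % p).toNat * g₀ (e i) ^ ((p : ℤ) * (z / p)) := by
      rw [← zpow_natCast, Int.toNat_of_nonneg (Int.emod_nonneg z hpz0.ne'), ← zpow_add, Int.emod_add_mul_ediv]
    rw [h1, mul_assoc] at he
    exact congrArg Subtype.val he
  have hinj : ∀ i, ∀ a b : ℕ, a < p → b < p → (g₀ (e i) ^ a)⁻¹ * g₀ (e i) ^ b ∈ (e i).1 → a = b := by
    intro i a b ha hb h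
    by_contra hne
    have h' : g₀ (e i) ^ ((b : ℤ) - a) ∈ (e i).1 := by
      rw [zpow_sub, zpow_natCast, zpow_natCast]
      rwa [← (Commute.pow_pow_self (g₀ (e i)) a b).inv_left.eq]
    have hcop : IsCoprime ((b : ℤ) - a) (p : ℤ) := by
      refine ((Nat.prime_iff_prime_int.1 hp).coprime_iff_not_dvd.2 fun hd => ?_).symm
      have := Int.eq_zero_of_dvd_of_natAbs_lt_natAbs hd (by omega)
      omega
    obtain ⟨u, v, huv⟩ := hcop
    refine hg₀ (e i) ?_
    have : g₀ (e i) = g₀ (e i) ^ (((b : ℤ) - a) * u) * g₀ (e i) ^ ((p : ℤ) * v) := by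
      rw [← zpow_add, mul_comm _ u, mul_comm (p : ℤ) v, huv, zpow_one]
    rw [this, zpow_mul]
    exact (e i).1.mul_mem (zpow_mem h' u) (hpz i v)
  have hnorm : ∀ i, gG i ∈ Subgroup.normalizer (TG i : Set G) := fun i => by
    haveI := hnormal i
    refine Subgroup.mem_normalizer_iff.2 fun t => ⟨fun ht => ?_, fun ht => ?_⟩
    · obtain ⟨u, hu, rfl⟩ := ht
      exact ⟨g₀ (e i) * u * (g₀ (e i))⁻¹, Subgroup.Normal.conj_mem inferInstance _ hu _, rfl⟩
    · obtain ⟨u, hu, he⟩ := ht
      refine ⟨(g₀ (e i))⁻¹ * u * g₀ (e i), by simpa using Subgroup.Normal.conj_mem inferInstance _ hu (g₀ (e i))⁻¹, ?_⟩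
      show (gG i)⁻¹ * (Q.subtype u) * gG i = t
      rw [he]
      group
  have hsum : r = ∑ i, ∑ m ∈ Finset.range p, cj (gG i ^ m) (d₀ i) := by
    ext x
    simp only [MonoidAlgebra.coeff_sum, Finsupp.finsetSum_apply, coeff_cj, hd₀c]
    by_cases hx : r.coeff x = 0
    · rw [hx, Finset.sum_eq_zero]
      intro i _
      refine Finset.sum_eq_zero fun m _ => ?_
      simp only [w]
      split_ifs
      · have := hr.coeff (Q.inv_mem (Q.pow_mem (g₀ (e i)).2 m)) x
        rw [inv_inv] at this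
        rw [this, hx]
      · rfl
    obtain ⟨hco, hle⟩ := hTT x hx
    set i₀ := e.symm ⟨TT x, hco⟩ with hi₀
    have he₀ : (e i₀).1 = TT x := by rw [hi₀, e.apply_symm_apply]
    have hg : ∀ i m, (gG i ^ m)⁻¹ ∈ Q := fun i m => Q.inv_mem (Q.pow_mem (g₀ (e i)).2 m)
    have hval : ∀ i m, TT ((gG i ^ m)⁻¹ * x * gG i ^ m) = TT x ∧ r.coeff ((gG i ^ m)⁻¹ * x * gG i ^ m) = r.coeff x ∧
        rep ((gG i ^ m)⁻¹ * x * gG i ^ m) = rep x := fun i m => by
      have h1 := hTTconj _ (hg i m) x
      have h2 := hr.coeff (hg i m) x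
      have h3 := hrepc _ (hg i m) x
      simp only [inv_inv] at h1 h2 h3
      exact ⟨h1, h2, h3⟩
    rw [Finset.sum_eq_single i₀]
    swap
    · intro i _ hi
      refine Finset.sum_eq_zero fun m _ => ?_
      simp only [w]
      rw [if_neg fun h => hi ?_]
      apply e.injective
      exact Subtype.ext (by rw [he₀, ← h.1, (hval i m).1])
    swap
    · simp
    obtain ⟨q, hq, hqx⟩ := hrep x
    obtain ⟨m₀, hm₀, t, ht, hqt⟩ := hcover i₀ q hq
    rw [Finset.sum_eq_single_of_mem m₀ (Finset.mem_range.2 hm₀)]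
    · simp only [w]
      rw [if_pos, (hval i₀ m₀).2.1]
      refine ⟨(hval i₀ m₀).1.trans he₀.symm, t, ht, ?_⟩
      rw [(hval i₀ m₀).2.2]
      conv_lhs => rw [hqx, hqt]
      group
    · intro m hm hne
      simp only [w]
      rw [if_neg]
      rintro ⟨-, s, hs, hxs⟩
      rw [(hval i₀ m).2.2] at hxs
      replace hxs : (gG i₀ ^ m)⁻¹ * (q * rep x * q⁻¹) * gG i₀ ^ m = s * rep x * s⁻¹ := by rw [← hqx]; exact hxs
      refine hne ?_
      set u : G := s⁻¹ * (gG i₀ ^ m)⁻¹ * q with hu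
      have huQ : u ∈ Q := Q.mul_mem (Q.mul_mem (Q.inv_mem (Subgroup.map_subtype_le _ hs)) (hg i₀ m)) hq
      have hust : (⟨u, huQ⟩ : Q) ∈ St (rep x) := Subgroup.mem_subgroupOf.2 (Subgroup.mem_centralizer_singleton_iff.2 (by
        have := congrArg (fun z => s⁻¹ * z * s) hxs
        calc u * rep x = s⁻¹ * ((gG i₀ ^ m)⁻¹ * (q * rep x * q⁻¹) * gG i₀ ^ m) * s * u := by rw [hu]; group
          _ = rep x * u := by rw [hxs]; group))
      have hrle : St (rep x) ≤ TT x := by
        have h1 := hTTconj q hq (rep x)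
        rw [← hqx] at h1
        rw [h1]
        refine (hTT (rep x) ?_).2
        have h2 := hr.coeff hq (rep x)
        rw [← hqx] at h2
        rwa [← h2]
      have hmem : (⟨u, huQ⟩ : Q) ∈ (e i₀).1 := he₀ ▸ hrle hust
      have h1 : ((gG i₀ ^ m)⁻¹ * gG i₀ ^ m₀ : G) ∈ TG i₀ := by
        have h2 := (TG i₀).mul_mem ((TG i₀).mul_mem hs ((hTG i₀ ⟨u, huQ⟩).2 hmem)) ((TG i₀).inv_mem ht)
        convert h2 using 1
        show _ = s * u * t⁻¹
        rw [hu, hqt]
        group
      exact hinj i₀ m m₀ (Finset.mem_range.1 hm) hm₀ ((hTG i₀ _).1 (by simpa [gG] using h1))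
  refine ⟨ι, inferInstance, TG, gG, fun i => avg y (d₀ i), fun i => ⟨Subgroup.map_subtype_le _, (g₀ (e i)).2,
    fun h => hg₀ (e i) ((hTG i _).1 h), by simpa [gG] using (hTG i _).2 (hgp i), hnorm i, hcover i,
    fix_avg (Subgroup.centralizer_le (Subgroup.map_subtype_le _) hy) (hd₀F i), cj_avg _ _⟩, ?_⟩
  conv_lhs => rw [← avg_of_fix (p := p) hyo hry, hsum]
  simp only [avg, map_sum, cj_smul, Finset.smul_sum]
  rw [Finset.sum_comm]
  refine Finset.sum_congr rfl fun i _ => ?_
  rw [Finset.sum_comm]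
  refine Finset.sum_congr rfl fun m _ => Finset.sum_congr rfl fun l _ => ?_
  rw [cj_cj, cj_cj, ((show Commute y (gG i) from (Subgroup.mem_centralizer_iff.1 hy _ (g₀ (e i)).2).symm).pow_pow l m).eq]

end CfsgLib.Star
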